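import Cfsg.Agent.Lib.BlockLocal.Induced
import Cfsg.Agent.Lib.BlockLocal.RegUnit
import Cfsg.Agent.Lib.Blocks.Defect
import Cfsg.Agent.Lib.BrauerCharacters.PRegular
import Cfsg.Agent.Lib.CharTheory.Degree

/-!
# Characters of full degree over a central `p`-subgroup
-/

set_option autoImplicit false
set_option linter.unusedSectionVars false
set_option linter.style.haveILetI false

open scoped ComplexConjugate
open Cfsg

namespace CfsgLib.BlockLocal

open CfsgLib.Blocks CfsgLib.CharTheory Finset

variable {G : Type*} [Group G] [Fintype G]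

/-- Translating by a central element multiplies a character by a scalar. -/
theorem apply_mul_central (χ : IrrCharacter G) {d : G} (hd : d ∈ Subgroup.center G) (g : G) :
    (χ : G → ℂ) (g * d) * (χ : G → ℂ) 1 = (χ : G → ℂ) g * (χ : G → ℂ) d := by
  classical
  have h1 := apply_one_ne_zero_of_isIrr χ.2
  have hz : IsClassElem (MonoidAlgebra.single d (1 : ℂ)) := by
    intro h x
    simp only [MonoidAlgebra.coeff_single, Finsupp.single_apply]
    refine if_congr ?_ rfl rfl
    have hdh : h * d * h⁻¹ = d := by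
      rw [Subgroup.mem_center_iff.mp hd h, mul_inv_cancel_right]
    constructor
    · intro e
      calc d = h⁻¹ * (h * d * h⁻¹) * h := by group
        _ = h⁻¹ * (h * x * h⁻¹) * h := by rw [hdh, e]
        _ = x := by group
    · intro e
      rw [← e, hdh]
  have h := omega_mul χ.2 hz (MonoidAlgebra.single g (1 : ℂ))
  rw [MonoidAlgebra.single_mul_single, one_mul, omega_single, omega_single, omega_single,
    Subgroup.mem_center_iff.mp hd g |>.symm] at h
  field_simp at h
  linear_combination h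

theorem mul_conj_central (χ : IrrCharacter G) {d : G} (hd : d ∈ Subgroup.center G) (g : G) :
    (χ : G → ℂ) (g * d) * conj ((χ : G → ℂ) (g * d)) =
      (χ : G → ℂ) g * conj ((χ : G → ℂ) g) := by
  have h1 := apply_one_ne_zero_of_isIrr χ.2
  have e1 : conj ((χ : G → ℂ) 1) = (χ : G → ℂ) 1 := by
    rw [← IsIrrCharacter.inv χ.2, inv_one]
  have hdd : (χ : G → ℂ) d * conj ((χ : G → ℂ) d) = (χ : G → ℂ) 1 * (χ : G → ℂ) 1 := by
    have h := apply_mul_central χ (inv_mem hd) d
    rwa [mul_inv_cancel, IsIrrCharacter.inv χ.2, eq_comm] at h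
  have hg := apply_mul_central χ hd g
  have hg' := congrArg conj hg
  rw [map_mul, map_mul, e1] at hg'
  apply mul_left_cancel₀ (mul_ne_zero h1 h1)
  linear_combination (conj ((χ : G → ℂ) (g * d)) * (χ : G → ℂ) 1) * hg +
    ((χ : G → ℂ) g * (χ : G → ℂ) d) * hg' + ((χ : G → ℂ) g * conj ((χ : G → ℂ) g)) * hdd

/-- The square norms of a character sum over a subgroup to a multiple of its order. -/
theorem exists_int_sum_mul_conj (U : Subgroup G) [Fintype U] (χ : IrrCharacter G) :
    ∃ z : ℤ, ∑ u : U, (χ : G → ℂ) u * conj ((χ : G → ℂ) u) = z * (Nat.card U : ℂ) := by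
  classical
  haveI := Fintype.ofFinite (IrrCharacter U)
  obtain ⟨m, hm, hm'⟩ := res_eq_sum U χ
  refine ⟨∑ η : IrrCharacter U, (m η : ℤ) * m η, ?_⟩
  calc ∑ u : U, (χ : G → ℂ) u * conj ((χ : G → ℂ) u)
      = ∑ u : U, ∑ η : IrrCharacter U, (m η : ℂ) * ((η : U → ℂ) u * conj ((χ : G → ℂ) u)) := by
        refine sum_congr rfl fun u _ => ?_
        conv_lhs => arg 1; rw [hm u]
        rw [sum_mul]
        exact sum_congr rfl fun η _ => by ring
    _ = ∑ η : IrrCharacter U, (m η : ℂ) * ((Nat.card U : ℂ) * (m η : ℂ)) := by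
        rw [sum_comm]
        refine sum_congr rfl fun η _ => ?_
        rw [← mul_sum]
        congr 1
        have h := congrArg conj (hm' η)
        rw [← classInner_conj_symm, map_natCast] at h
        rw [← h, classInner, ← mul_assoc, mul_inv_cancel₀ (Nat.cast_ne_zero.2 Nat.card_pos.ne'),
          one_mul]
    _ = _ := by
        push_cast
        rw [sum_mul]
        exact sum_congr rfl fun η _ => by ring

/-- The regular self pairing over the degree is an algebraic integer. -/
theorem isIntegral_pairReg_div (p : ℕ) (χ : IrrCharacter G) :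
    IsIntegral ℤ (pairReg p (χ : G → ℂ) (χ : G → ℂ) / (χ : G → ℂ) 1) := by
  classical
  haveI : Finite (ConjClasses G) := Finite.of_surjective _ ConjClasses.mk_surjective
  haveI := Fintype.ofFinite (ConjClasses G)
  have hcl := IsIrrCharacter.isClassFunction χ.2
  have h : pairReg p (χ : G → ℂ) (χ : G → ℂ) / (χ : G → ℂ) 1 =
      omega (χ : G → ℂ) (CfsgLib.Blocks.ofFun (regInv p (χ : G → ℂ))) := by
    rw [omega_eq_sum]
    rfl
  rw [h, omega_eq_sum_classes hcl
    (isClassElem_ofFun fun c x => isClassFunction_regInv hcl x c)]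
  refine IsIntegral.sum _ fun C _ => (IsIntegral.mul ?_ (isIntegral_centralChar χ _))
  rw [coeff_ofFun, regInv]
  split_ifs
  · exact isIntegral_zero
  · exact IsCharacter.isIntegral (IsIrrCharacter.isCharacter χ.2) _

variable {p : ℕ} [Fact p.Prime] {D : Subgroup G}

theorem exists_orderOf_eq_pow (hD : IsPGroup p D) {d : G} (hd : d ∈ D) :
    ∃ k : ℕ, orderOf d = p ^ k := by
  obtain ⟨k, hk⟩ := IsPGroup.iff_orderOf.mp hD ⟨d, hd⟩
  exact ⟨k, by rw [← hk, ← Subgroup.orderOf_coe]⟩

/-- The regular part of the norm of a character of full degree over a central `p`-subgroup is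
everything. -/
theorem pairReg_eq_index (hD : IsPGroup p D) (hDZ : D ≤ Subgroup.center G) (χ : IrrCharacter G)
    (hdeg : (charDegree (χ : G → ℂ)).factorization p = D.index.factorization p) :
    pairReg p (χ : G → ℂ) (χ : G → ℂ) = (D.index : ℂ) ∧
      ∀ g x : G, IsPPart p g x → x ∉ D → (χ : G → ℂ) g = 0 := by
  classical
  haveI : D.Normal := ⟨fun d hd g => by
    rw [Subgroup.mem_center_iff.mp (hDZ hd) g, mul_inv_cancel_right]
    exact hd⟩
  haveI := Fintype.ofFinite (G ⧸ D)
  haveI := Fintype.ofFinite D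
  set π := QuotientGroup.mk' D with hπ
  set θ : G ⧸ D → ℂ := fun q => (χ : G → ℂ) q.out * conj ((χ : G → ℂ) q.out) with hθ
  have hθmk : ∀ g : G, θ (π g) = (χ : G → ℂ) g * conj ((χ : G → ℂ) g) := by
    intro g
    obtain ⟨d, hd⟩ := QuotientGroup.mk_out_eq_mul D g
    simp only [hθ, hπ, QuotientGroup.mk'_apply, hd]
    exact mul_conj_central χ (hDZ d.2) g
  have hθc : ∀ q r : G ⧸ D, θ (r * q * r⁻¹) = θ q := by
    intro q r
    obtain ⟨g, rfl⟩ := QuotientGroup.mk'_surjective D q
    obtain ⟨c, rfl⟩ := QuotientGroup.mk'_surjective D r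
    rw [← hπ, ← map_mul, ← map_inv, ← map_mul, hθmk, hθmk,
      IsIrrCharacter.isClassFunction χ.2 g c]
  -- sums over cosets
  have hfib : ∀ f : G ⧸ D → ℂ, ∑ g : G, f (π g) = (Nat.card D : ℂ) * ∑ q, f q := by
    intro f
    rw [mul_sum, ← sum_fiberwise_of_maps_to (g := π) (fun g _ => mem_univ (π g))]
    refine sum_congr rfl fun q _ => ?_
    rw [sum_congr rfl (g := fun _ => f q) (fun g hg => by rw [(mem_filter.1 hg).2]), sum_const,
      nsmul_eq_mul]
    congr 2
    rw [← Fintype.card_subtype, ← Nat.card_eq_fintype_card]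
    obtain ⟨g, rfl⟩ := QuotientGroup.mk'_surjective D q
    refine Nat.card_congr
      { toFun := fun x => ⟨g⁻¹ * x.1, QuotientGroup.eq.mp x.2.symm⟩
        invFun := fun d => ⟨g * d, ?_⟩
        left_inv := fun x => Subtype.ext (mul_inv_cancel_left g x.1)
        right_inv := fun d => by simp }
    rw [hπ, QuotientGroup.mk'_apply, QuotientGroup.mk'_apply]
    exact (QuotientGroup.eq.mpr (by simp)).symm
  have htot : ∑ q, θ q = (D.index : ℂ) := by
    have h := hfib θ
    simp only [hθmk] at h
    have h2 := classInner_irrCharacter χ χ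
    rw [if_pos rfl, classInner, h, ← Subgroup.card_mul_index D, Nat.cast_mul] at h2
    have hD0 : (Nat.card D : ℂ) ≠ 0 := Nat.cast_ne_zero.2 Nat.card_pos.ne'
    have hI0 : (D.index : ℂ) ≠ 0 := Nat.cast_ne_zero.2 Subgroup.index_ne_zero_of_finite
    field_simp at h2
    linear_combination h2
  -- regular cosets
  have hregq : ∀ g x : G, IsPPart p g x → (¬ p ∣ orderOf (π g) ↔ x ∈ D) := by
    intro g x hx
    obtain ⟨y, rfl, hc, ⟨k, hk⟩, hy⟩ := hx
    obtain ⟨j, -, hj⟩ := (Nat.dvd_prime_pow (Fact.out : p.Prime)).mp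
      ((orderOf_map_dvd π x).trans (dvd_of_eq hk))
    have h2 : IsPPart p (π (x * y)) (π x) :=
      ⟨π y, (map_mul π x y).symm, hc.map π, ⟨j, hj⟩,
        fun h => hy (h.trans (orderOf_map_dvd π y))⟩
    rw [← isPPart_eq_one_iff h2, hπ, QuotientGroup.mk'_apply, QuotientGroup.eq_one_iff]
  have hpair : ∑ q, (if p ∣ orderOf q then 0 else θ q) =
      pairReg p (χ : G → ℂ) (χ : G → ℂ) := by
    rw [pairReg]
    symm
    refine sum_bij_ne_zero (fun x _ _ => π x) (fun _ _ _ => mem_univ _) ?_ ?_ ?_
    · intro a _ ha b _ hb hab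
      have hreg : ∀ x, regInv p (χ : G → ℂ) x * (χ : G → ℂ) x ≠ 0 → ¬ p ∣ orderOf x :=
        fun x hx h => hx (by simp [regInv, h])
      have hmem : a⁻¹ * b ∈ D := QuotientGroup.eq.mp hab
      have hcomm : Commute a (a⁻¹ * b) := (Subgroup.mem_center_iff.mp (hDZ hmem) a)
      have h1 := (not_dvd_orderOf_mul_iff (p := p) hcomm (exists_orderOf_eq_pow hD hmem)
        (hreg a ha)).mp (by rw [mul_inv_cancel_left]; exact hreg b hb)
      exact (inv_mul_eq_one.mp h1)
    · intro q _ hq
      have hreg : ¬ p ∣ orderOf q := fun h => hq (if_pos h)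
      rw [if_neg hreg] at hq
      obtain ⟨g, rfl⟩ := QuotientGroup.mk'_surjective D q
      obtain ⟨x, hx⟩ := exists_isPPart p g
      have hxD := (hregq g x hx).mp hreg
      obtain ⟨y, hy, hc, -, hyr⟩ := hx
      have hπy : π g = π y := by
        rw [← hy, map_mul, show π x = 1 from (QuotientGroup.eq_one_iff x).mpr hxD, one_mul]
      refine ⟨y, mem_univ _, ?_, hπy.symm⟩
      rw [← hπ, hπy, hθmk] at hq
      rw [regInv, if_neg hyr, IsIrrCharacter.inv χ.2, mul_comm]
      exact hq
    · intro x _ hx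
      have hxr : ¬ p ∣ orderOf x := fun h => hx (by simp [regInv, h])
      rw [if_neg (fun h => hxr (h.trans (orderOf_map_dvd π x))), hθmk, regInv, if_neg hxr,
        IsIrrCharacter.inv χ.2, mul_comm]
  -- the integrality constraint
  obtain ⟨z, hz⟩ := BrauerCharacters.exists_int_sum_pRegWeight p hθc (fun U _ => by
    haveI hUfin := Fintype.ofFinite (U.comap π)
    obtain ⟨z, hz⟩ := exists_int_sum_mul_conj (U.comap π) χ
    refine ⟨z, ?_⟩
    have h := hfib (fun q => if q ∈ U then θ q else 0)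
    have e1 : ∑ g : G, (if π g ∈ U then θ (π g) else 0) =
        ∑ u : U.comap π, (χ : G → ℂ) u * conj ((χ : G → ℂ) u) := by
      rw [← sum_filter]
      refine (sum_subtype (p := fun g : G => g ∈ U.comap π) (F := hUfin) _
        (fun g => by simp [Subgroup.mem_comap]) _).trans ?_
      exact sum_congr rfl fun u _ => hθmk u
    have e2 : ∑ q, (if q ∈ U then θ q else 0) = ∑ u : U, θ u := by
      rw [← sum_filter]
      exact sum_subtype _ (fun q => by simp) _
    have e3 : Nat.card (U.comap π) = Nat.card D * Nat.card U := by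
      have h3 : (Nat.card (U.comap π) : ℂ) = ∑ g : G, (if π g ∈ U then (1 : ℂ) else 0) := by
        rw [sum_boole, ← Fintype.card_subtype, ← Nat.card_eq_fintype_card]
        exact congrArg Nat.cast (Nat.card_congr (Equiv.subtypeEquivRight fun g => Iff.rfl))
      rw [hfib (fun q => if q ∈ U then (1 : ℂ) else 0), sum_boole, ← Fintype.card_subtype,
        ← Nat.card_eq_fintype_card] at h3
      exact_mod_cast h3
    rw [e1, hz, e2, e3, Nat.cast_mul] at h
    exact mul_left_cancel₀ (Nat.cast_ne_zero.2 (Nat.card_pos (α := D)).ne')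
      (by linear_combination -h))
  set R := pairReg p (χ : G → ℂ) (χ : G → ℂ) with hR
  set k := D.index.factorization p with hkdef
  set m := D.index / p ^ k with hmdef
  have hcardQ : Nat.card (G ⧸ D) = D.index := rfl
  have hmk : D.index = p ^ k * m := (Nat.ordProj_mul_ordCompl_eq_self _ _).symm
  have hmp : ¬ p ∣ m := Nat.not_dvd_ordCompl Fact.out Subgroup.index_ne_zero_of_finite
  have hp0 : (p : ℂ) ≠ 0 := Nat.cast_ne_zero.2 (Fact.out : p.Prime).ne_zero
  have hRm : R = (z : ℂ) * (m : ℂ) := by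
    have e : ∑ q, (BrauerCharacters.pRegWeight p (G ⧸ D) q : ℂ) * θ q = (p : ℂ) ^ k * R := by
      rw [← hpair, mul_sum]
      refine sum_congr rfl fun q _ => ?_
      rw [BrauerCharacters.pRegWeight, hcardQ]
      split_ifs <;> simp [← hkdef]
    rw [e, hcardQ] at hz
    apply mul_left_cancel₀ (pow_ne_zero k hp0)
    rw [hz, hmk]
    push_cast
    ring
  -- divisibility of `z`
  set N := charDegree (χ : G → ℂ) with hN
  set n := N / p ^ k with hndef
  have hNk : N = p ^ k * n := by
    have h := (Nat.ordProj_mul_ordCompl_eq_self N p).symm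
    rwa [hN, hdeg, ← hN, ← hndef] at h
  have hN0 : N ≠ 0 := charDegree_irr_ne_zero χ
  have hint := isIntegral_pairReg_div p χ
  obtain ⟨r, hr⟩ : (p : ℤ) ^ k ∣ z := by
    have hq : ((((z * m : ℤ) : ℚ) / ((N : ℤ) : ℚ) : ℚ) : ℂ) = R / (χ : G → ℂ) 1 := by
      rw [hRm, ← coe_charDegree, ← hN]
      push_cast
      ring
    rw [← hR, ← hq] at hint
    obtain ⟨j, hj⟩ := exists_int_of_isIntegral_ratCast hint
    have hN' : ((N : ℤ) : ℚ) ≠ 0 := by exact_mod_cast hN0
    rw [eq_comm, div_eq_iff hN'] at hj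
    have hj' : z * (m : ℤ) = j * (N : ℤ) := by exact_mod_cast hj
    refine (show IsCoprime ((p : ℤ) ^ k) (m : ℤ) from ?_).dvd_of_dvd_mul_right ⟨j * n, ?_⟩
    · refine IsCoprime.pow_left ?_
      rw [Int.isCoprime_iff_nat_coprime]
      exact (Fact.out : p.Prime).coprime_iff_not_dvd.2 hmp
    · rw [hj', hNk]
      push_cast
      ring
  have hRidx : R = (r : ℂ) * (D.index : ℂ) := by
    rw [hRm, hr, hmk]
    push_cast
    ring
  -- real parts
  have hθr : ∀ q, θ q = ((Complex.normSq ((χ : G → ℂ) q.out) : ℝ) : ℂ) := fun q =>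
    Complex.mul_conj _
  set T : G ⧸ D → ℝ := fun q => Complex.normSq ((χ : G → ℂ) q.out) with hT
  have htotR : ∑ q, T q = (D.index : ℝ) := by
    apply Complex.ofReal_injective
    rw [Complex.ofReal_sum, Complex.ofReal_natCast, ← htot]
    exact sum_congr rfl fun q _ => (hθr q).symm
  have hregR : ∑ q ∈ univ.filter (fun q : G ⧸ D => ¬ p ∣ orderOf q), T q =
      (r : ℝ) * (D.index : ℝ) := by
    apply Complex.ofReal_injective
    rw [Complex.ofReal_sum, Complex.ofReal_mul, Complex.ofReal_intCast, Complex.ofReal_natCast,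
      ← hRidx, ← hpair, sum_filter]
    refine sum_congr rfl fun q _ => ?_
    rw [hθr]
    split_ifs <;> rfl
  have hTnn : ∀ q, 0 ≤ T q := fun q => Complex.normSq_nonneg _
  have hpos : 0 < ∑ q ∈ univ.filter (fun q : G ⧸ D => ¬ p ∣ orderOf q), T q := by
    refine sum_pos' (fun q _ => hTnn q) ⟨1, mem_filter.2 ⟨mem_univ _, ?_⟩, ?_⟩
    · rw [orderOf_one]
      exact (Fact.out : p.Prime).not_dvd_one
    · rw [hT, Complex.normSq_pos]
      intro h0
      have h := hθmk 1
      rw [map_one, hθ] at h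
      simp only [h0, zero_mul] at h
      rcases mul_eq_zero.mp h.symm with h | h
      · exact apply_one_ne_zero_of_isIrr χ.2 h
      · exact apply_one_ne_zero_of_isIrr χ.2 (by simpa using h)
  have hsplit := sum_filter_add_sum_filter_not univ (fun q : G ⧸ D => ¬ p ∣ orderOf q) T
  have hrest : 0 ≤ ∑ q ∈ univ.filter (fun q : G ⧸ D => ¬ ¬ p ∣ orderOf q), T q :=
    sum_nonneg fun q _ => hTnn q
  have hIpos : (0 : ℝ) < (D.index : ℝ) :=
    Nat.cast_pos.2 (Nat.pos_of_ne_zero Subgroup.index_ne_zero_of_finite)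
  have hr1 : r = 1 := by
    have h1 : (0 : ℝ) < r := by
      rw [hregR] at hpos
      exact pos_of_mul_pos_left hpos hIpos.le
    have h2 : (r : ℝ) * (D.index : ℝ) ≤ 1 * (D.index : ℝ) := by
      rw [one_mul, ← hregR]; linarith [htotR]
    have h3 := le_of_mul_le_mul_right h2 hIpos
    have h1' : (0 : ℤ) < r := by exact_mod_cast h1
    have h3' : r ≤ (1 : ℤ) := by exact_mod_cast h3
    omega
  refine ⟨by rw [hRidx, hr1]; simp, fun g x hx hxD => ?_⟩
  have hzero : ∑ q ∈ univ.filter (fun q : G ⧸ D => ¬ ¬ p ∣ orderOf q), T q = 0 := by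
    rw [hregR, hr1, Int.cast_one, one_mul, htotR] at hsplit
    linarith
  have hg : T (π g) = 0 := (sum_eq_zero_iff_of_nonneg fun q _ => hTnn q).mp hzero _
    (mem_filter.2 ⟨mem_univ _, fun h => hxD ((hregq g x hx).mp h)⟩)
  have h := hθmk g
  rw [hθr, show Complex.normSq ((χ : G → ℂ) (π g).out) = 0 from hg, Complex.ofReal_zero,
    Complex.mul_conj, eq_comm, Complex.ofReal_eq_zero, Complex.normSq_eq_zero] at h
  exact h

variable {M : Ideal AlgInt} [hMp : M.IsPrime]

/-- A character of full degree over a central `p`-subgroup has that subgroup as defect group. -/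
theorem isDefectGroup_central (hM : IsPModular p M) (hD : IsPGroup p D)
    (hDZ : D ≤ Subgroup.center G) (χ : IrrCharacter G)
    (hdeg : (charDegree (χ : G → ℂ)).factorization p = D.index.factorization p)
    {E : Subgroup G} (hE : IsDefectGroup p M (blockOf M (χ : G → ℂ)) E) : E = D := by
  classical
  obtain ⟨hR, -⟩ := pairReg_eq_index hD hDZ χ hdeg
  have hB := isPBlock_blockOf (M := M) χ
  haveI : D.Normal := ⟨fun d hd g => by
    rw [Subgroup.mem_center_iff.mp (hDZ hd) g, mul_inv_cancel_right]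
    exact hd⟩
  have hI0 : D.index ≠ 0 := Subgroup.index_ne_zero_of_finite
  have hD' : D ≤ E := (CfsgLib.Cores.le_pCore hD).trans (pCore_le_isDefectGroup hM hB hE)
  have hlow : D.index.factorization p ≤ sInf ((fun ψ : IrrCharacter G =>
      (charDegree (ψ : G → ℂ)).factorization p) '' blockOf M (χ : G → ℂ)) := by
    refine le_csInf (Set.Nonempty.image _ ⟨χ, mem_blockOf_self χ⟩) ?_
    rintro _ ⟨ψ, hψ, rfl⟩
    rw [← hdeg]
    show (charDegree (χ : G → ℂ)).factorization p ≤ (charDegree (ψ : G → ℂ)).factorization p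
    refine factorization_le_of_not_memLocalIdeal_div hM (charDegree_irr_ne_zero ψ) fun hmem => ?_
    have hunit : ¬ MemLocalIdeal M (pairReg p (χ : G → ℂ) (χ : G → ℂ) / (χ : G → ℂ) 1) := by
      rw [hR, ← coe_charDegree]
      intro h
      rw [natCast_div_eq_ordCompl p, hdeg, div_self (Nat.cast_ne_zero.2
        (pow_ne_zero _ (Fact.out : p.Prime).ne_zero)), one_mul] at h
      set m := D.index / p ^ D.index.factorization p with hm
      set n := charDegree (χ : G → ℂ) / p ^ D.index.factorization p with hn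
      have hnp : ¬ p ∣ n := by
        rw [hn, ← hdeg]
        exact Nat.not_dvd_ordCompl Fact.out (charDegree_irr_ne_zero χ)
      have hn0 : (n : ℂ) ≠ 0 := Nat.cast_ne_zero.2 fun h0 => hnp (h0 ▸ dvd_zero p)
      have h2 := memLocalIdeal_mul_left (memLocalRing_natCast (M := M) n) h
      rw [mul_div_cancel₀ _ hn0, memLocalIdeal_natCast_iff hM] at h2
      exact Nat.not_dvd_ordCompl Fact.out hI0 h2
    refine hunit ?_
    have hX : MemLocalRing M (pairReg p (χ : G → ℂ) (ψ : G → ℂ) / (χ : G → ℂ) 1) := by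
      have h := memLocalRing_omega (M := M) χ
        (z := CfsgLib.Blocks.ofFun (regInv p (ψ : G → ℂ)))
        (isClassElem_ofFun fun h x =>
          isClassFunction_regInv (IsIrrCharacter.isClassFunction ψ.2) x h)
        (fun g => memLocalRing_regInv p ψ g)
      rwa [omega_eq_sum] at h
    have hsub := memLocalIdeal_pairReg_div_sub (M := M) p
      (sameBlock_of_mem hB hψ (mem_blockOf_self χ)) χ
    have hfirst : MemLocalIdeal M (pairReg p (ψ : G → ℂ) (χ : G → ℂ) / (ψ : G → ℂ) 1) := by
      have h1 := apply_one_ne_zero_of_isIrr χ.2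
      have h2 := memLocalIdeal_mul_right hmem hX
      rw [coe_charDegree, coe_charDegree] at h2
      rwa [pairReg_comm p (ψ : G → ℂ) (χ : G → ℂ),
        show pairReg p (χ : G → ℂ) (ψ : G → ℂ) / (ψ : G → ℂ) 1 =
          (χ : G → ℂ) 1 / (ψ : G → ℂ) 1 *
            (pairReg p (χ : G → ℂ) (ψ : G → ℂ) / (χ : G → ℂ) 1) by field_simp]
    have := memLocalIdeal_sub hfirst hsub
    rwa [sub_sub_cancel] at this
  refine (Subgroup.eq_of_le_of_card_ge hD' ?_).symm
  obtain ⟨j, hj⟩ := IsPGroup.iff_card.mp hD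
  rw [card_isDefectGroup hM hB hE, hj]
  refine Nat.pow_le_pow_right (Fact.out : p.Prime).pos ?_
  have hG : (Nat.card G).factorization p = j + D.index.factorization p := by
    rw [← Subgroup.card_mul_index D, hj, Nat.factorization_mul
      (pow_ne_zero _ (Fact.out : p.Prime).ne_zero) hI0, Finsupp.add_apply,
      Nat.Prime.factorization_pow (Fact.out : p.Prime), Finsupp.single_eq_same]
  rw [blockDefect, hG]
  omega

end CfsgLib.BlockLocal
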