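import Cfsg.Agent.Lib.Blocks.Defect
import Cfsg.Agent.Lib.Blocks.Induced
import Cfsg.Agent.Lib.BrauerPairs.NormalP

/-!
# Defect groups as intersections of two Sylow subgroups
-/

set_option autoImplicit false
set_option linter.unusedSectionVars false
set_option linter.style.haveILetI false

open MonoidAlgebra Cfsg

namespace CfsgLib.BlockLocal

open CfsgLib.Blocks

section Algebra

variable {k : Type*} [Field k] {p : ℕ} [CharP k p] [Fact p.Prime] {Q : Type*} [Group Q] [Finite Q]

/-- Right multiplication by the inverse. -/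
def rightMulPerm {K : Type*} [Group K] (C : Subgroup K) : C →* Equiv.Perm K where
  toFun c := Equiv.mulRight (c : K)⁻¹
  map_one' := by ext; simp
  map_mul' a b := by ext; simp [mul_assoc]

/-- If an idempotent is a sum over a free `R`-set of elements, one of them moves `R` away from
itself. -/
theorem exists_trivial_inter {R : Subgroup Q} (hR : IsPGroup p R) {e w : MonoidAlgebra k Q}
    (S : Finset Q) (hee : e * e = e) (he0 : e ≠ 0)
    (hec : ∀ u ∈ R, Commute (single u (1 : k)) e)
    (hwc : ∀ u ∈ R, Commute (single u (1 : k)) w) (hS : ∀ u ∈ R, ∀ x ∈ S, u * x * u⁻¹ ∈ S)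
    (hfree : ∀ u ∈ R, ∀ x ∈ S, u * x * u⁻¹ = x → u = 1)
    (he : e = (∑ x ∈ S, single x (1 : k)) * w) :
    ∃ x ∈ S, ∀ u ∈ R, x⁻¹ * u * x ∈ R → u = 1 := by
  classical
  haveI := Fintype.ofFinite R
  obtain ⟨y, hy0, hey, hRy⟩ := BrauerPairs.exists_left_fixed hR hee he0 hec
  by_contra hno
  push Not at hno
  apply hy0
  have hwy : ∀ u ∈ R, single u (1 : k) * (w * y) = w * y := fun u hu => by
    rw [← mul_assoc, (hwc u hu).eq, mul_assoc, BrauerPairs.mem_leftStab.1 (hRy hu)]
  rw [← hey, he, mul_assoc, Finset.sum_mul]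
  let g : Q → Finset Q := fun x => Finset.univ.image fun u : R => (u : Q) * x * (u : Q)⁻¹
  rw [← Finset.sum_fiberwise_of_maps_to (g := g) (t := S.image g)
    (fun x hx => Finset.mem_image_of_mem g hx)]
  refine Finset.sum_eq_zero fun c hc => ?_
  obtain ⟨x, hx, rfl⟩ := Finset.mem_image.1 hc
  have hfib : S.filter (fun z => g z = g x) =
      Finset.univ.image fun u : R => (u : Q) * x * (u : Q)⁻¹ := by
    ext z
    rw [Finset.mem_filter]
    constructor
    · rintro ⟨-, hz⟩
      show z ∈ g x
      rw [← hz]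
      exact Finset.mem_image.2 ⟨1, Finset.mem_univ _, by simp⟩
    · intro hz
      obtain ⟨u, -, rfl⟩ := Finset.mem_image.1 hz
      refine ⟨hS u u.2 x hx, ?_⟩
      ext v
      simp only [g, Finset.mem_image, Finset.mem_univ, true_and]
      constructor
      · rintro ⟨a, rfl⟩
        exact ⟨a * u, by push_cast; group⟩
      · rintro ⟨a, rfl⟩
        exact ⟨a * u⁻¹, by push_cast; group⟩
  have hinj : Function.Injective fun u : R => (u : Q) * x * (u : Q)⁻¹ := by
    intro a b hab
    have h1 : (((b⁻¹ * a : R)) : Q) * x * (((b⁻¹ * a : R)) : Q)⁻¹ = x := by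
      simp only at hab
      push_cast
      calc (b : Q)⁻¹ * a * x * ((b : Q)⁻¹ * a)⁻¹ = (b : Q)⁻¹ * (a * x * (a : Q)⁻¹) * b := by group
        _ = x := by rw [hab]; group
    exact (inv_mul_eq_one.1 (Subtype.ext (hfree _ (b⁻¹ * a).2 x hx h1))).symm
  rw [hfib, Finset.sum_image hinj.injOn]
  obtain ⟨u0, hu0, hxu, hu01⟩ := hno x hx
  set v : R → MonoidAlgebra k Q := fun u => single ((u : Q) * x) (1 : k) * (w * y) with hv
  have hterm : ∀ u : R, single ((u : Q) * x * (u : Q)⁻¹) (1 : k) * (w * y) = v u := fun u => by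
    conv_rhs => rw [hv]; simp only []; rw [← hwy (u : Q)⁻¹ (inv_mem u.2)]
    rw [← mul_assoc (single ((u : Q) * x) (1 : k)) (single (u : Q)⁻¹ (1 : k)), single_mul_single,
      mul_one]
  rw [Finset.sum_congr rfl fun u _ => hterm u]
  let C : Subgroup R := Subgroup.zpowers ⟨u0, hu0⟩
  have hvC : ∀ c ∈ C, ∀ u, v (u * c) = v u := by
    have hgen : ∀ u, v (u * ⟨u0, hu0⟩) = v u := fun u => by
      conv_rhs => rw [hv]; simp only []; rw [← hwy _ hxu]
      rw [hv]
      simp only []
      rw [← mul_assoc (single ((u : Q) * x) (1 : k)) (single (x⁻¹ * u0 * x) (1 : k)),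
        single_mul_single, mul_one]
      congr 2
      push_cast
      group
    intro c hc
    obtain ⟨j, rfl⟩ := hc
    show ∀ u, v (u * (⟨u0, hu0⟩ : R) ^ j) = v u
    induction j using Int.induction_on with
    | zero => simp
    | succ i ih =>
      intro u
      rw [zpow_add_one, ← mul_assoc, hgen]
      exact ih u
    | pred i ih =>
      intro u
      rw [← hgen, mul_assoc, ← zpow_add_one, sub_add_cancel]
      exact ih u
  rw [sum_eq_sum_fixed (p := p) (hR.to_subgroup C) (rightMulPerm C) (fun a => by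
    ext q
    rw [coeff_smul_apply, coeff_zero, Finsupp.zero_apply, nsmul_eq_mul, CharP.cast_eq_zero,
      zero_mul]) v (fun c u => hvC _ (inv_mem c.2) u)]
  refine Finset.sum_eq_zero ?_
  intro u hu
  exfalso
  apply hu01
  simp only [Finset.mem_filter] at hu
  obtain ⟨-, hfix⟩ := hu
  let c0 : C := ⟨(⟨u0, hu0⟩ : R), Subgroup.mem_zpowers (⟨u0, hu0⟩ : R)⟩
  have h1 : rightMulPerm C c0 u = u := hfix c0
  have h2 : u * (⟨u0, hu0⟩ : R)⁻¹ = u := h1
  exact congrArg Subtype.val (inv_eq_one.1 (mul_eq_left.1 h2))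

end Algebra

variable {G : Type*} [Group G] [Finite G] {p : ℕ} [Fact p.Prime] {M : Ideal AlgInt} [M.IsPrime]

/-- Green's theorem: a defect group is the intersection of a Sylow subgroup with a conjugate by a
`p`-regular element centralizing it. -/
theorem exists_sylow_inter_eq (hM : IsPModular p M) {B : Set (IrrCharacter G)}
    (hB : IsPBlock M B) {D : Subgroup G} (hD : IsDefectGroup p M B D) (P : Sylow p G)
    (hDP : D ≤ P) :
    ∃ x : G, ¬ p ∣ orderOf x ∧
      (∃ S : Sylow p (Subgroup.centralizer ({x} : Set G)),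
        (S : Subgroup (Subgroup.centralizer ({x} : Set G))).map
          (Subgroup.centralizer ({x} : Set G)).subtype = D) ∧
      (P : Subgroup G) ⊓ (P : Subgroup G).map (MulAut.conj x).toMonoidHom = D := by
  classical
  haveI := charP_res hM
  haveI := Fintype.ofFinite G
  obtain ⟨g, hg, S, hDS⟩ := id hD
  obtain ⟨χ, hχ⟩ := isPBlock_nonempty hB
  have hgr := not_dvd_orderOf_of_isDefectClass hM hB hg
  have hDp : IsPGroup p D := isPGroup_of_isDefectGroup hD
  have hgD : g ∈ Subgroup.centralizer (D : Set G) := by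
    rw [Subgroup.mem_centralizer_iff]
    intro u hu
    rw [hDS] at hu
    exact Subgroup.mem_centralizer_singleton_iff.mp (sylow_map_le S hu)
  obtain ⟨wG, hwG, -⟩ := exists_classSum_mul_eq_idemLoc hB hχ (hg.2.2 χ hχ)
  set N := Subgroup.normalizer (D : Set G) with hN
  have hCN : Subgroup.centralizer (D : Set G) ≤ N := Subgroup.centralizer_le_normalizer _
  set T := truncHom (k := Res M) hDp hCN le_rfl with hT
  haveI hDn : (D.subgroupOf N).Normal :=
    Subgroup.normal_subgroupOf_iff_le_normalizer Subgroup.le_normalizer |>.mpr le_rfl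
  haveI := Fintype.ofFinite N
  set π := QuotientGroup.mk' (D.subgroupOf N) with hπ
  set f := mapDomainRingHom (Res M) π with hf
  set Ω : Finset N := Finset.univ.filter fun n : N =>
    IsConj g (n : G) ∧ (n : G) ∈ Subgroup.centralizer (D : Set G) with hΩ
  have hΩm : ∀ n : N, n ∈ Ω ↔ IsConj g (n : G) ∧ (n : G) ∈ Subgroup.centralizer (D : Set G) :=
    fun n => by simp [hΩ]
  have hΩreg : ∀ n ∈ Ω, ¬ p ∣ orderOf (n : G) := fun n hn => by
    obtain ⟨c, hc⟩ := isConj_iff.1 ((hΩm n).1 hn).1
    rw [← hc, show c * g * c⁻¹ = MulAut.conj c g from rfl, (MulAut.conj c).orderOf_eq]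
    exact hgr
  have hDel : ∀ d ∈ D, ∃ k : ℕ, orderOf d = p ^ k := fun d hd => by
    obtain ⟨k, hk⟩ := IsPGroup.iff_orderOf.mp hDp ⟨d, hd⟩
    exact ⟨k, by rw [← hk, ← Subgroup.orderOf_coe]⟩
  -- injectivity of `π` on regular elements centralizing `D`
  have hinj : ∀ a b : N, (a : G) ∈ Subgroup.centralizer (D : Set G) → ¬ p ∣ orderOf (a : G) →
      ¬ p ∣ orderOf (b : G) → π a = π b → a = b := by
    intro a b ha har hbr hab
    have hmem : (a : G)⁻¹ * b ∈ D := by
      have := QuotientGroup.eq.mp hab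
      simpa [Subgroup.mem_subgroupOf] using this
    have hcomm : Commute (a : G) ((a : G)⁻¹ * b) :=
      (Subgroup.mem_centralizer_iff.mp ha _ hmem).symm
    by_contra hne
    have hu : (a : G)⁻¹ * b ≠ 1 := fun h => hne (Subtype.ext (inv_mul_eq_one.1 h))
    have hp' : IsPPart p (((a : G)⁻¹ * b) * a) ((a : G)⁻¹ * b) :=
      isPPart_mul hcomm.symm (hDel _ hmem) har
    rw [← hcomm.eq, mul_inv_cancel_left] at hp'
    exact hu ((isPPart_eq_one_iff hp').mpr hbr)
  set S' : Finset (↥N ⧸ D.subgroupOf N) := Ω.image π with hS'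
  set e : classAlg (Res M) N := T (idemRes M B (memLocalRing_blockCoeff hB)) with he
  set w : classAlg (Res M) N := T (classMap (red M) wG) with hw
  have heq : e = T (classSumA (Res M) g) * w := by
    rw [he, hw, idemRes, ← hwG, map_mul, map_mul, classMap_classSumA]
  have hyΩ : (T (classSumA (Res M) g) : MonoidAlgebra (Res M) N) =
      ∑ n ∈ Ω, single n (1 : Res M) := by
    refine MonoidAlgebra.ext (Finsupp.ext fun n => ?_)
    rw [coeff_finsetSum_apply]
    simp only [coeff_single, Finsupp.single_apply, Finset.sum_ite_eq']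
    show truncFun D N (classSum (Res M) g) n = _
    by_cases hnC : (n : G) ∈ Subgroup.centralizer (D : Set G)
    · rw [truncFun_of_mem _ hnC, coeff_classSum]
      split_ifs <;> simp_all
    · rw [truncFun_of_notMem _ hnC, if_neg (fun h => hnC ((hΩm n).1 h).2)]
  have hcen : ∀ (z : classAlg (Res M) N) (q : ↥N ⧸ D.subgroupOf N),
      Commute (single q (1 : Res M)) (f (z : MonoidAlgebra (Res M) N)) := by
    intro z q
    obtain ⟨n, rfl⟩ := QuotientGroup.mk'_surjective _ q
    have h := ((IsClassElem.commute z.2 (single n (1 : Res M))).map f).symm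
    have e1 : f (single n (1 : Res M)) = single (π n) (1 : Res M) := by
      show mapDomain π (single n (1 : Res M)) = _
      rw [mapDomain_single]
    rw [e1] at h
    exact h.symm
  have hidem : e * e = e := by rw [he, ← map_mul, idemRes_mul_self]
  have he0 : f (e : MonoidAlgebra (Res M) N) ≠ 0 := by
    intro h0
    apply hg.2.1
    rw [← coeff_idemRes_eq_zero_iff (memLocalRing_blockCoeff hB)]
    have h1 := congrArg (fun z : MonoidAlgebra (Res M) (↥N ⧸ D.subgroupOf N) =>
      z.coeff (π ⟨g, hCN hgD⟩)) h0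
    simp only [hf, coeff_mapDomainRingHom, coeff_zero, Finsupp.zero_apply] at h1
    rw [Finset.sum_eq_single (⟨g, hCN hgD⟩ : N)] at h1
    · rw [if_pos rfl, he, coeff_truncHom,
        truncFun_of_mem _ (show ((⟨g, hCN hgD⟩ : N) : G) ∈ _ from hgD)] at h1
      exact h1
    · intro n _ hn
      split_ifs with hπn
      · rw [he, coeff_truncHom]
        by_cases hnC : (n : G) ∈ Subgroup.centralizer (D : Set G)
        · rw [truncFun_of_mem _ hnC, coeff_idemRes_eq_zero_iff]
          by_contra hne
          refine hn (hinj n ⟨g, hCN hgD⟩ hnC (fun hd => hne ?_) hgr hπn)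
          rw [blockCoeff_eq_zero_of_dvd_orderOf hM hB hd]
          exact memLocalIdeal_zero
        · rw [truncFun_of_notMem _ hnC]
      · rfl
    · simp
  set R : Subgroup (↥N ⧸ D.subgroupOf N) := ((P : Subgroup G).subgroupOf N).map π with hR
  have hRp : IsPGroup p R := (P.2.comap_of_injective N.subtype Subtype.val_injective).map π
  have hmax : ∀ n ∈ Ω, ∀ u : G, u ∈ (P : Subgroup G) → u * (n : G) = n * u → u ∈ D := by
    intro n hn u hu hun
    have hle : D ⊔ Subgroup.zpowers u ≤ Subgroup.centralizer ({(n : G)} : Set G) :=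
      sup_le (fun d hd => by
        rw [Subgroup.mem_centralizer_singleton_iff]
        exact Subgroup.mem_centralizer_iff.mp ((hΩm n).1 hn).2 d hd)
        (Subgroup.zpowers_le.2 (Subgroup.mem_centralizer_singleton_iff.2 hun))
    obtain ⟨T', hT'⟩ := exists_sylow_map_ge
      (P.2.to_le (sup_le hDP (Subgroup.zpowers_le.2 hu))) hle
    have hcard : Nat.card D = Nat.card ((T' : Subgroup (Subgroup.centralizer ({(n : G)} : Set G))).map
        (Subgroup.centralizer ({(n : G)} : Set G)).subtype) := by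
      rw [card_isDefectGroup hM hB hD, card_isDefectGroup hM hB
        (isDefectGroup_sylow_map (isDefectClass_of_isConj hg ((hΩm n).1 hn).1) T')]
    have heqD := Subgroup.eq_of_le_of_card_ge (le_sup_left.trans hT') hcard.ge
    rw [heqD]
    exact hT' (Subgroup.mem_sup_right (Subgroup.mem_zpowers u))
  obtain ⟨q, hq, hqR⟩ := exists_trivial_inter (p := p) hRp S'
    (e := f (e : MonoidAlgebra (Res M) N)) (w := f (w : MonoidAlgebra (Res M) N))
    (by rw [← map_mul, ← Subalgebra.coe_mul, hidem]) he0 (fun u _ => hcen e u)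
    (fun u _ => hcen w u)
    (by
      intro u hu x hx
      obtain ⟨a, ha, rfl⟩ := hu
      obtain ⟨n, hn, rfl⟩ := Finset.mem_image.1 hx
      refine Finset.mem_image.2 ⟨a * n * a⁻¹, (hΩm _).2 ?_, by simp⟩
      push_cast
      rw [isConj_conj_iff, conj_mem_centralizer_iff_of_mem_normalizer a.2]
      exact (hΩm n).1 hn)
    (by
      intro u hu x hx hux
      obtain ⟨a, ha, rfl⟩ := hu
      obtain ⟨n, hn, rfl⟩ := Finset.mem_image.1 hx
      rw [← map_inv, ← map_mul, ← map_mul] at hux
      have h := hinj _ _ (by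
          push_cast
          rw [conj_mem_centralizer_iff_of_mem_normalizer a.2]
          exact ((hΩm n).1 hn).2) (by
          push_cast
          rw [show (a : G) * n * (a : G)⁻¹ = MulAut.conj (a : G) n from rfl,
            (MulAut.conj (a : G)).orderOf_eq]
          exact hΩreg n hn) (hΩreg n hn) hux
      have h' := congrArg Subtype.val h
      push_cast at h'
      have haD := hmax n hn a ha (mul_inv_eq_iff_eq_mul.mp h')
      exact (QuotientGroup.eq_one_iff a).2 (Subgroup.mem_subgroupOf.2 haD))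
    (by
      rw [heq, Subalgebra.coe_mul, map_mul, hyΩ, map_sum]
      congr 1
      rw [hS', Finset.sum_image]
      · refine Finset.sum_congr rfl fun n _ => ?_
        show mapDomain π (single n (1 : Res M)) = _
        rw [mapDomain_single]
      · intro a ha b hb hab
        exact hinj a b ((hΩm a).1 ha).2 (hΩreg a ha) (hΩreg b hb) hab)
  obtain ⟨n, hn, rfl⟩ := Finset.mem_image.1 hq
  refine ⟨n, hΩreg n hn, ?_, ?_⟩
  · obtain ⟨T', hT'⟩ := exists_sylow_map_ge hDp (fun d hd => by
      rw [Subgroup.mem_centralizer_singleton_iff]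
      exact Subgroup.mem_centralizer_iff.mp ((hΩm n).1 hn).2 d hd :
      D ≤ Subgroup.centralizer ({(n : G)} : Set G))
    refine ⟨T', (Subgroup.eq_of_le_of_card_ge hT' ?_).symm⟩
    rw [card_isDefectGroup hM hB hD, card_isDefectGroup hM hB
      (isDefectGroup_sylow_map (isDefectClass_of_isConj hg ((hΩm n).1 hn).1) T')]
  · set I := (P : Subgroup G) ⊓ (P : Subgroup G).map (MulAut.conj (n : G)).toMonoidHom with hI
    have hDI : D ≤ I := fun d hd => by
      refine Subgroup.mem_inf.2 ⟨hDP hd, d, hDP hd, ?_⟩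
      have h := Subgroup.mem_centralizer_iff.mp ((hΩm n).1 hn).2 d hd
      simp only [MulEquiv.coe_toMonoidHom, MulAut.conj_apply]
      rw [← h, mul_inv_cancel_right]
    by_contra hne
    have hlt := BrauerPairs.lt_inf_normalizer (P.2.to_le inf_le_left)
      (lt_of_le_of_ne hDI (Ne.symm hne))
    obtain ⟨v, hv, hvD⟩ := SetLike.exists_of_lt hlt
    obtain ⟨hvI, hvN⟩ := Subgroup.mem_inf.1 hv
    obtain ⟨hvP, u, huP, huv⟩ := Subgroup.mem_inf.1 hvI
    let v' : N := ⟨v, hvN⟩
    have h1 := hqR (π v') ⟨v', hvP, rfl⟩ ⟨n⁻¹ * v' * n, ?_, by simp⟩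
    · exact hvD (Subgroup.mem_subgroupOf.1 ((QuotientGroup.eq_one_iff v').1 h1))
    · rw [SetLike.mem_coe, Subgroup.mem_subgroupOf]
      push_cast
      simp only [MulEquiv.coe_toMonoidHom, MulAut.conj_apply] at huv
      rw [show (n : G)⁻¹ * v * n = u by rw [← huv]; group]
      exact huP

end CfsgLib.BlockLocal
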