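import Cfsg.Agent.Lib.BlockLocal.WeakOrth
import Cfsg.Agent.Lib.BlockLocal.RegUnit
import Mathlib.Algebra.CharP.Lemmas
import Mathlib.FieldTheory.Finite.Basic

/-!
# The coefficients of the principal block idempotent

`coef₁ (w ^ n) = (∑ w x over x ^ n = 1) ^ n` for `n` a power of the characteristic, and Külshammer's
formula for the principal block idempotent.
-/

set_option autoImplicit false
set_option linter.unusedSectionVars false
set_option linter.style.haveILetI false

open MonoidAlgebra Cfsg

namespace CfsgLib.BlockLocal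

open CfsgLib.Blocks

section Power

variable {k : Type*} [Field k] {G : Type*} [Group G] [Fintype G] [DecidableEq G]

theorem coeff_pow_eq_sum (w : MonoidAlgebra k G) (n : ℕ) : ∀ c : G,
    (w ^ n).coeff c =
      ∑ f : Fin n → G, if (List.ofFn f).prod = c then ∏ i, w.coeff (f i) else 0 := by
  induction n with
  | zero =>
    intro c
    rw [pow_zero, one_def, coeff_single, Finsupp.single_apply, Fintype.sum_unique]
    simp
  | succ n ih =>
    intro c
    rw [pow_succ', coeff_mul_eq_sum, ← (Fin.consEquiv fun _ => G).sum_comp, Fintype.sum_prod_type]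
    refine Finset.sum_congr rfl fun x _ => ?_
    rw [ih, Finset.mul_sum]
    refine Finset.sum_congr rfl fun f _ => ?_
    simp only [Fin.consEquiv, Equiv.coe_fn_mk, List.ofFn_succ, Fin.cons_zero, Fin.cons_succ,
      List.prod_cons, Fin.prod_univ_succ, mul_ite, mul_zero]
    exact if_congr (eq_inv_mul_iff_mul_eq) rfl rfl

theorem prod_ofFn_rotate_eq_one_iff {n : ℕ} (f : Fin (n + 1) → G) :
    (List.ofFn fun i => f (finRotate (n + 1) i)).prod = 1 ↔ (List.ofFn f).prod = 1 := by
  have h1 : (List.ofFn fun i => f (finRotate (n + 1) i)).prod =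
      (List.ofFn fun i : Fin n => f i.succ).prod * f 0 := by
    have h2 : ∀ i : Fin n, finRotate (n + 1) i.castSucc = i.succ := fun i => by
      rw [finRotate_succ_apply, Fin.coeSucc_eq_succ]
    have h3 : finRotate (n + 1) (Fin.last n) = 0 := finRotate_last
    rw [List.ofFn_succ' (f := fun i => f (finRotate (n + 1) i)), List.concat_eq_append,
      List.prod_append, List.prod_singleton, h3]
    simp only [h2]
  rw [h1, List.ofFn_succ, List.prod_cons]
  exact mul_eq_one_comm

theorem eq_const_of_rotate {n : ℕ} {f : Fin (n + 1) → G}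
    (h : (fun i => f (finRotate (n + 1) i)) = f) : ∀ i, f i = f 0 := by
  intro i
  induction i using Fin.induction with
  | zero => rfl
  | succ i ih =>
    rw [← ih]
    have := congrFun h i.castSucc
    simp only [finRotate_succ_apply, Fin.coeSucc_eq_succ] at this
    exact this

variable {p : ℕ} [Fact p.Prime] [CharP k p]

theorem eq_const_of_rotate' {n N : ℕ} (hn : N = n + 1) {f : Fin N → G}
    (h : (fun i => f (finRotate N i)) = f) (i j : Fin N) : f i = f j := by
  subst hn
  exact (eq_const_of_rotate h i).trans (eq_const_of_rotate h j).symm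

/-- The coefficient at `1` of a `p ^ m`-th power. -/
theorem coeff_one_pow (w : MonoidAlgebra k G) (m : ℕ) :
    (w ^ (p ^ m)).coeff 1 =
      (∑ x ∈ Finset.univ.filter (fun x : G => x ^ (p ^ m) = 1), w.coeff x) ^ (p ^ m) := by
  classical
  haveI : ExpChar k p := ExpChar.prime Fact.out
  rw [sum_pow_char_pow p m, coeff_pow_eq_sum]
  obtain ⟨n, hn⟩ : ∃ n, p ^ m = n + 1 :=
    ⟨p ^ m - 1, by have := Nat.one_le_pow m p (Fact.out : p.Prime).pos; omega⟩
  let σ : Equiv.Perm (Fin (p ^ m) → G) := (Equiv.arrowCongr (finRotate (p ^ m)) (Equiv.refl G)).symm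
  have hσapp : ∀ f i, σ f i = f (finRotate (p ^ m) i) := fun f i => rfl
  have hσk : ∀ (j : ℕ) f i, (σ ^ j) f i = f (((finRotate (p ^ m)) ^ j) i) := by
    intro j
    induction j with
    | zero => intro f i; rfl
    | succ j ih =>
      intro f i
      rw [pow_succ', Equiv.Perm.mul_apply, hσapp, ih, pow_succ, Equiv.Perm.mul_apply]
  have hσord : σ ^ (p ^ m) = 1 := by
    refine Equiv.ext fun f => funext fun i => ?_
    rw [hσk]
    have : (finRotate (p ^ m)) ^ (p ^ m) = 1 := by
      rcases Nat.lt_or_ge n 1 with h0 | h0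
      · rw [hn, show n = 0 by omega]
        decide
      · obtain ⟨n', rfl⟩ := Nat.exists_eq_add_of_le' h0
        rw [hn]
        have hc := (isCycle_finRotate (n := n')).orderOf
        rw [support_finRotate, Finset.card_univ, Fintype.card_fin] at hc
        conv_lhs => arg 2; rw [← hc]
        exact pow_orderOf_eq_one _
    rw [this]
    rfl
  have hQ : IsPGroup p (Subgroup.zpowers σ) := by
    obtain ⟨j, -, hj⟩ := (Nat.dvd_prime_pow (Fact.out : p.Prime)).mp
      (orderOf_dvd_of_pow_eq_one hσord)
    exact IsPGroup.of_card (n := j) (by rw [Nat.card_zpowers, hj])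
  have hinv : ∀ f : Fin (p ^ m) → G,
      (if (List.ofFn (σ f)).prod = 1 then ∏ i, w.coeff (σ f i) else 0) =
      if (List.ofFn f).prod = 1 then ∏ i, w.coeff (f i) else 0 := by
    intro f
    refine if_congr ?_ ?_ rfl
    · show (List.ofFn fun i => f (finRotate (p ^ m) i)).prod = 1 ↔ _
      generalize p ^ m = N at hn f ⊢
      subst hn
      exact prod_ofFn_rotate_eq_one_iff f
    · simp only [hσapp]
      exact Equiv.prod_comp (finRotate (p ^ m)) (fun i => w.coeff (f i))
  rw [sum_eq_sum_fixed (p := p) hQ (Subgroup.zpowers σ).subtype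
    (fun a => by rw [nsmul_eq_mul, CharP.cast_eq_zero, zero_mul]) _ ?_]
  · symm
    refine Finset.sum_bij_ne_zero (fun x _ _ => fun _ => x) ?_ ?_ ?_ ?_
    · intro x hx _
      simp only [Finset.mem_filter, Finset.mem_univ, true_and]
      intro q
      obtain ⟨_, j, rfl⟩ := q
      show (σ ^ j) (fun _ => x) = fun _ => x
      exact Equiv.Perm.zpow_apply_eq_self_of_apply_eq_self (funext fun i => rfl) j
    · intro a _ _ b _ _ hab
      exact congrFun hab ⟨0, pow_pos (Fact.out : p.Prime).pos m⟩
    · intro f hf hne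
      simp only [Finset.mem_filter] at hf
      have hfix : σ f = f := hf.2 ⟨σ, Subgroup.mem_zpowers σ⟩
      set i0 : Fin (p ^ m) := ⟨0, pow_pos (Fact.out : p.Prime).pos m⟩
      have hconst : f = fun _ => f i0 := by
        have h : (fun i => f (finRotate (p ^ m) i)) = f := hfix
        exact funext fun i => eq_const_of_rotate' hn h i i0
      rw [hconst, List.ofFn_const, List.prod_replicate, Finset.prod_const, Finset.card_univ,
        Fintype.card_fin] at hne
      have hx : f i0 ^ p ^ m = 1 := by_contra fun h => hne (if_neg h)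
      rw [if_pos hx] at hne
      exact ⟨f i0, Finset.mem_filter.2 ⟨Finset.mem_univ _, hx⟩, hne, hconst.symm⟩
    · intro x hx _
      rw [List.ofFn_const, List.prod_replicate, if_pos (Finset.mem_filter.1 hx).2,
        Finset.prod_const, Finset.card_univ, Fintype.card_fin]
  · intro q f
    obtain ⟨_, j, rfl⟩ := q
    show (if (List.ofFn ((σ ^ j) f)).prod = 1 then ∏ i, w.coeff ((σ ^ j) f i) else 0) = _
    induction j using Int.induction_on with
    | zero => rfl
    | succ i ih =>
      rw [add_comm, zpow_one_add, Equiv.Perm.mul_apply, hinv]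
      exact ih
    | pred i ih =>
      rw [← hinv, ← Equiv.Perm.mul_apply, ← zpow_one_add, add_sub_cancel]
      exact ih

end Power

variable {G : Type*} [Group G] {p : ℕ} {M : Ideal AlgInt} [M.IsPrime]

/-- A central element killed by every central character is nilpotent. -/
theorem isNilpotent_of_forall_omegaRes [Finite G] {y : classAlg (Res M) G}
    (h : ∀ χ : IrrCharacter G, omegaRes M χ y = 0) :
    y ^ Nat.card (IrrCharacter G) = 0 := by
  classical
  haveI := Fintype.ofFinite (IrrCharacter G)
  obtain ⟨z, rfl⟩ := classMap_surjective (G := G) (IsLocalRing.residue_surjective :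
    Function.Surjective (red M)) y
  have h0 : ∏ χ : IrrCharacter G,
      (z - algebraMap (locRing M) (classAlg (locRing M) G) (omegaLoc M χ z)) = 0 := by
    refine classAlgLoc_ext fun χ => ?_
    rw [map_prod, map_zero, Finset.prod_eq_zero (Finset.mem_univ χ)]
    rw [map_sub, omegaLoc_algebraMap, sub_self]
  have hA : ∀ r : locRing M, red M r = 0 →
      classMap (red M) (algebraMap (locRing M) (classAlg (locRing M) G) r) = 0 := fun r hr => by
    refine Subtype.ext (MonoidAlgebra.ext (Finsupp.ext fun x => ?_))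
    rw [coe_classMap, Subalgebra.coe_algebraMap, coeff_mapRingHom, coe_algebraMap,
      Function.comp_apply, coeff_single]
    simp only [Algebra.algebraMap_self, RingHom.id_apply, Finsupp.single_apply]
    split_ifs
    · rw [hr]; rfl
    · rw [map_zero]; rfl
  have h1 := congrArg (classMap (red M)) h0
  rw [map_prod, map_zero] at h1
  rw [Nat.card_eq_fintype_card, ← Finset.card_univ, ← Finset.prod_const]
  refine Eq.trans (Finset.prod_congr rfl fun χ _ => ?_) h1
  have h2 := h χ
  rw [omegaRes_classMap] at h2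
  rw [map_sub, hA _ h2, sub_zero]

variable [Fintype G]

/-- Külshammer's formula for the principal block idempotent. -/
theorem memLocalIdeal_blockCoeff_principal_sub [Fact p.Prime] (hM : IsPModular p M) (g : G)
    (hg : ¬ p ∣ orderOf g) :
    MemLocalIdeal M (blockCoeff (principalBlock M G) g -
      (Nat.card {xy : G × G // (∃ k : ℕ, orderOf xy.1 = p ^ k) ∧ ¬ p ∣ orderOf xy.2 ∧
        xy.1 * xy.2 = g} : ℂ) / (Nat.card {y : G // ¬ p ∣ orderOf y} : ℂ)) := by
  classical
  haveI := charP_res hM
  haveI : Nontrivial (classAlg (Res M) G) := ⟨0, 1, fun h => by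
    have := congrArg (omegaRes M (CharTheory.trivIrr G)) h
    rw [map_zero, map_one] at this
    exact zero_ne_one this⟩
  haveI : CharP (classAlg (Res M) G) p :=
    charP_of_injective_algebraMap (algebraMap (Res M) (classAlg (Res M) G)).injective p
  haveI : ExpChar (classAlg (Res M) G) p := ExpChar.prime Fact.out
  set B := principalBlock M G
  have hB : IsPBlock M B := ⟨CharTheory.trivIrr G, rfl⟩
  set R := Nat.card {y : G // ¬ p ∣ orderOf y} with hR
  let zL : classAlg (locRing M) G := ⟨ofFun fun x => if p ∣ orderOf x then 0 else 1,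
    isClassElem_ofFun fun h x => by
      rw [show orderOf (h * x * h⁻¹) = orderOf x from (MulAut.conj h).orderOf_eq x]⟩
  set Z : classAlg (Res M) G := classMap (red M) zL with hZ
  set e0 := idemRes M B (memLocalRing_blockCoeff hB) with he0
  have hZc : ∀ x, (Z : MonoidAlgebra (Res M) G).coeff x = if p ∣ orderOf x then 0 else 1 := by
    intro x
    rw [hZ, coe_classMap, coeff_mapRingHom]
    show red M (if p ∣ orderOf x then 0 else 1) = _
    split_ifs <;> simp
  have hω : ∀ χ : IrrCharacter G,
      (omegaLoc M χ zL : ℂ) = pairReg p (χ : G → ℂ) (fun _ => 1) / (χ : G → ℂ) 1 := by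
    intro χ
    rw [coe_omegaLoc, omega_eq_sum, pairReg]
    congr 1
    refine Finset.sum_congr rfl fun x _ => ?_
    rw [coeff_mapRingHom, regInv]
    show ((if p ∣ orderOf x then 0 else 1 : locRing M) : ℂ) * _ = _
    split_ifs <;> rfl
  have hone : pairReg p (fun _ : G => (1 : ℂ)) (fun _ => 1) = (R : ℂ) := by
    rw [pairReg, hR, Nat.card_eq_fintype_card, Fintype.card_subtype, Finset.card_filter,
      Nat.cast_sum]
    refine Finset.sum_congr rfl fun x _ => ?_
    rw [regInv]
    split_ifs <;> simp
  have hnil : (Z - (R : classAlg (Res M) G) * e0) ^ Nat.card (IrrCharacter G) = 0 := by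
    refine isNilpotent_of_forall_omegaRes fun χ => ?_
    rw [map_sub, map_mul, map_natCast, hZ, omegaRes_classMap]
    have ht : pairReg p (χ : G → ℂ) (fun _ => 1) =
        pairReg p (χ : G → ℂ) (CharTheory.trivIrr G : G → ℂ) := rfl
    by_cases hχ : χ ∈ B
    · rw [he0, omegaRes_idemRes_of_mem _ hχ, mul_one, sub_eq_zero,
        ← map_natCast (red M) R, red_eq_red_iff, hω, ht]
      have h := memLocalIdeal_pairReg_div_sub (M := M) p
        (sameBlock_of_mem hB hχ (mem_blockOf_self (CharTheory.trivIrr G))) (CharTheory.trivIrr G)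
      have e1 : pairReg p (CharTheory.trivIrr G : G → ℂ) (CharTheory.trivIrr G : G → ℂ) /
          (CharTheory.trivIrr G : G → ℂ) 1 = ((R : locRing M) : ℂ) := by
        show pairReg p (fun _ : G => (1 : ℂ)) (fun _ => 1) / 1 = _
        rw [hone, div_one]
        rfl
      rwa [e1] at h
    · rw [he0, omegaRes_idemRes_of_notMem _ hχ, mul_zero, sub_zero, red_eq_zero_iff, hω, ht,
        pairReg_eq_zero' hM (fun h => hχ (mem_of_sameBlock hB
          (mem_blockOf_self (CharTheory.trivIrr G)) (sameBlock_symm h))), zero_div]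
      exact memLocalIdeal_zero
  -- the identity `N = R * a`
  have key : ∀ y : G, ¬ p ∣ orderOf y →
      (Nat.card {xy : G × G // (∃ k : ℕ, orderOf xy.1 = p ^ k) ∧ ¬ p ∣ orderOf xy.2 ∧
        xy.1 * xy.2 = y} : Res M) = (R : Res M) * (e0 : MonoidAlgebra (Res M) G).coeff y := by
    intro y hy
    set m := (orderOf y).totient * (Nat.card G + Nat.card (IrrCharacter G)) with hm
    have hm0 : Nat.card G + Nat.card (IrrCharacter G) ≤ m :=
      Nat.le_mul_of_pos_left _ (Nat.totient_pos.2 (orderOf_pos y))
    have hbig : m < p ^ m := Nat.lt_pow_self (Fact.out : p.Prime).one_lt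
    have hpow : y ^ p ^ m = y := by
      have hc : p.Coprime (orderOf y) := (Fact.out : p.Prime).coprime_iff_not_dvd.2 hy
      have h1 := (Nat.ModEq.pow_totient hc).pow (Nat.card G + Nat.card (IrrCharacter G))
      rw [one_pow, ← pow_mul, ← hm] at h1
      conv_rhs => rw [← pow_one y]
      exact pow_eq_pow_iff_modEq.2 h1
    have hfr : ∀ a : ℕ, (a : Res M) ^ p ^ m = (a : Res M) := fun a => by
      haveI : ExpChar (Res M) p := ExpChar.prime Fact.out
      rw [← iterateFrobenius_def, map_natCast]
    have hcomm : Commute (single y⁻¹ (1 : Res M)) (Z : MonoidAlgebra (Res M) G) :=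
      IsClassElem.commute Z.2 _
    have h := coeff_one_pow (p := p) (single y⁻¹ (1 : Res M) * (Z : MonoidAlgebra (Res M) G)) m
    rw [hcomm.mul_pow, single_pow, one_pow, inv_pow, hpow] at h
    have hZpow : Z ^ p ^ m = ((R : classAlg (Res M) G) * e0) ^ p ^ m := by
      have e : Z = (Z - (R : classAlg (Res M) G) * e0) + (R : classAlg (Res M) G) * e0 := by ring
      rw [e, add_pow_char_pow, pow_eq_zero_of_le (by omega) hnil, zero_add]
    have hR' : ((R : classAlg (Res M) G) * e0) ^ p ^ m = (R : classAlg (Res M) G) * e0 := by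
      rw [mul_pow]
      congr 1
      · rw [← iterateFrobenius_def, map_natCast]
      · exact IsIdempotentElem.pow_eq (idemRes_mul_self _)
          (pow_ne_zero _ (Fact.out : p.Prime).ne_zero)
    rw [← Subalgebra.coe_pow, hZpow, hR'] at h
    have hs : ∑ x ∈ Finset.univ.filter (fun x : G => x ^ p ^ m = 1),
        (single y⁻¹ (1 : Res M) * (Z : MonoidAlgebra (Res M) G)).coeff x =
        (Nat.card {xy : G × G // (∃ k : ℕ, orderOf xy.1 = p ^ k) ∧ ¬ p ∣ orderOf xy.2 ∧
          xy.1 * xy.2 = y} : Res M) := by
      simp only [coeff_single_mul_apply, inv_inv, one_mul, hZc]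
      rw [Finset.sum_ite, Finset.sum_const_zero, zero_add, Finset.sum_const, nsmul_one,
        Finset.filter_filter]
      congr 1
      rw [← Fintype.card_subtype, ← Nat.card_eq_fintype_card]
      refine Nat.card_congr
        { toFun := fun x => ⟨(x.1⁻¹, x.1 * y), ?_, ?_, ?_⟩
          invFun := fun xy => ⟨xy.1.1⁻¹, ?_, ?_⟩
          left_inv := fun x => by simp
          right_inv := fun xy => by
            obtain ⟨⟨a, b⟩, -, -, hab⟩ := xy
            simp [← hab] }
      · obtain ⟨j, -, hj⟩ := (Nat.dvd_prime_pow (Fact.out : p.Prime)).mp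
          (orderOf_dvd_of_pow_eq_one x.2.1)
        exact ⟨j, by rw [orderOf_inv, hj]⟩
      · rw [show x.1 * y = MulAut.conj x.1 (y * x.1) by simp [mul_assoc],
          (MulAut.conj x.1).orderOf_eq]
        exact x.2.2
      · simp
      · obtain ⟨j, hj⟩ := xy.2.1
        rw [inv_pow, inv_eq_one]
        refine orderOf_dvd_iff_pow_eq_one.1 ?_
        rw [hj]
        refine Nat.pow_dvd_pow p ?_
        have hle : orderOf xy.1.1 ≤ Nat.card G := by
          rw [Nat.card_eq_fintype_card]; exact orderOf_le_card_univ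
        have hjp : j < p ^ j := Nat.lt_pow_self (Fact.out : p.Prime).one_lt
        omega
      · intro hd
        apply xy.2.2.1
        rw [show xy.1.2 = MulAut.conj (xy.1.1⁻¹) (y * (xy.1.1)⁻¹) by
          have e : xy.1.2 = xy.1.1⁻¹ * y := eq_inv_mul_iff_mul_eq.2 xy.2.2.2
          simp [e, mul_assoc], (MulAut.conj _).orderOf_eq]
        exact hd
    rw [hs, hfr, coeff_single_mul_apply, inv_inv, mul_one, one_mul] at h
    rw [← h]
    have e : (((R : classAlg (Res M) G) * e0 : classAlg (Res M) G) : MonoidAlgebra (Res M) G) =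
        (R : Res M) • (e0 : MonoidAlgebra (Res M) G) := by
      rw [Algebra.smul_def, map_natCast, Subalgebra.coe_mul]
      rfl
    rw [e, coeff_smul_apply, smul_eq_mul]
  have hR0 : ¬ p ∣ R := by
    intro hd
    have h := key 1 (by rw [orderOf_one]; exact (Fact.out : p.Prime).not_dvd_one)
    rw [(CharP.cast_eq_zero_iff (Res M) p R).2 hd, zero_mul, Nat.card_eq_one_iff_unique.2 ⟨?_, ?_⟩,
      Nat.cast_one] at h
    · exact one_ne_zero h
    · refine ⟨fun a b => ?_⟩
      have hall : ∀ c : {xy : G × G // (∃ k : ℕ, orderOf xy.1 = p ^ k) ∧ ¬ p ∣ orderOf xy.2 ∧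
          xy.1 * xy.2 = 1}, c.1 = (1, 1) := by
        rintro ⟨⟨x, y⟩, ⟨j, hj⟩, hy, hxy⟩
        simp only at hxy hj hy
        have hyx : y = x⁻¹ := eq_inv_of_mul_eq_one_right hxy
        subst hyx
        have hj0 : j = 0 := by
          by_contra hj0
          apply hy
          rw [orderOf_inv, hj]
          exact dvd_pow_self p hj0
        rw [hj0, pow_zero, orderOf_eq_one_iff] at hj
        simp [hj]
      exact Subtype.ext ((hall a).trans (hall b).symm)
    · exact ⟨⟨(1, 1), ⟨0, by simp⟩, by rw [orderOf_one]; exact (Fact.out : p.Prime).not_dvd_one,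
        one_mul 1⟩⟩
  have h := key g hg
  rw [he0, coeff_idemRes, ← map_natCast (red M), ← map_natCast (red M) R, ← map_mul,
    red_eq_red_iff] at h
  have hRc : (R : ℂ) ≠ 0 := Nat.cast_ne_zero.2 fun h0 => hR0 (h0 ▸ dvd_zero p)
  have h2 := memLocalIdeal_mul_right (memLocalIdeal_neg h) (memLocalRing_inv_natCast hM hR0)
  push_cast at h2
  rw [neg_sub, sub_mul, mul_comm (R : ℂ), mul_assoc, mul_inv_cancel₀ hRc, mul_one,
    ← div_eq_mul_inv] at h2
  exact h2

end CfsgLib.BlockLocal
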