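import Cfsg.Agent.Lib.Blocks.Defect
import Cfsg.Agent.Lib.Blocks.Induced
import Cfsg.Agent.Lib.BrauerPairs.BridgeDefect

/-!
# Blocks of local subgroups below a block: supports of idempotents and Brauer maps
-/

set_option autoImplicit false
set_option linter.unusedSectionVars false
set_option linter.style.haveILetI false

open MonoidAlgebra Cfsg

namespace CfsgLib.BlockLocal

open CfsgLib.Blocks

variable {p : ℕ} {M : Ideal AlgInt} [M.IsPrime]

/-- An idempotent central element killed by every central character is zero. -/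
theorem eq_zero_of_forall_omegaRes {H : Type*} [Group H] [Finite H] {e : classAlg (Res M) H}
    (he : e * e = e) (h : ∀ χ : IrrCharacter H, omegaRes M χ e = 0) : e = 0 := by
  classical
  obtain ⟨z, rfl⟩ := classMap_surjective (G := H) (IsLocalRing.residue_surjective :
    Function.Surjective (red M)) e
  have huniv : ∀ g : H, MemLocalRing M (blockCoeff (Set.univ : Set (IrrCharacter H)) g) := by
    intro g
    rw [← coeff_blockIdem, blockIdem_univ, one_def, coeff_single, Finsupp.single_apply]
    split_ifs
    · exact mem_locRing.1 (one_mem _)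
    · exact mem_locRing.1 (zero_mem _)
  have hone : idemLoc M (Set.univ : Set (IrrCharacter H)) huniv = 1 := classAlgLoc_ext fun χ => by
    rw [omegaLoc_idemLoc_of_mem _ (Set.mem_univ χ), map_one]
  obtain ⟨w, hw, -⟩ := exists_mul_eq_idemLoc (y := 1 - z) huniv fun χ _ => by
    rw [map_sub, map_one]
    refine IsLocalRing.isUnit_one_sub_self_of_mem_nonunits _ ?_
    have h0 := h χ
    rw [omegaRes_classMap, red_eq_zero_iff] at h0
    rw [mem_nonunits_iff, isUnit_locRing_iff, not_not]
    exact h0
  rw [hone] at hw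
  have h1 : (1 - classMap (red M) z) * classMap (red M) w = 1 := by
    rw [← map_one (classMap (red M) (G := H)), ← map_sub, ← map_mul, hw]
  calc classMap (red M) z
      = classMap (red M) z * ((1 - classMap (red M) z) * classMap (red M) w) := by
        rw [h1, mul_one]
    _ = 0 := by rw [← mul_assoc, mul_sub, mul_one, he, sub_self, zero_mul]

variable {G : Type*} [Group G] [Finite G]

/-- A conjugate of a subgroup centralizes the corresponding conjugate of an element. -/
theorem map_conj_le_centralizer' {P : Subgroup G} {c : G}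
    (hc : c ∈ Subgroup.centralizer (P : Set G)) :
    P ≤ Subgroup.centralizer ({c} : Set G) := fun u hu => by
  rw [Subgroup.mem_centralizer_singleton_iff]
  exact Subgroup.mem_centralizer_iff.mp hc u hu

variable [Fact p.Prime]

/-- The support of a block idempotent modulo `M` meets `C(P)` exactly when `P` is conjugate into
a defect group. -/
theorem exists_support_centralizer_iff (hM : IsPModular p M) {B : Set (IrrCharacter G)}
    (hB : IsPBlock M B) {D : Subgroup G} (hD : IsDefectGroup p M B D) {P : Subgroup G}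
    (hP : IsPGroup p P) :
    (∃ c : G, ¬ MemLocalIdeal M (blockCoeff B c) ∧ c ∈ Subgroup.centralizer (P : Set G)) ↔
      ∃ x : G, P.map (MulAut.conj x).toMonoidHom ≤ D := by
  obtain ⟨g, hg, S, rfl⟩ := hD
  obtain ⟨χ, hχ⟩ := isPBlock_nonempty hB
  constructor
  · rintro ⟨c, hc, hcP⟩
    exact exists_conj_le_sylow hM hB hc hχ (hg.2.2 χ hχ) hP (map_conj_le_centralizer' hcP) S
  · rintro ⟨x, hx⟩
    refine ⟨x⁻¹ * g * x, ?_, ?_⟩
    · have h := blockCoeff_conj B x⁻¹ g
      rw [inv_inv] at h
      rw [h]
      exact hg.2.1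
    · rw [Subgroup.mem_centralizer_iff]
      intro u hu
      have h : x * u * x⁻¹ ∈ Subgroup.centralizer ({g} : Set G) :=
        sylow_map_le S (hx ⟨u, hu, rfl⟩)
      rw [Subgroup.mem_centralizer_singleton_iff] at h
      calc u * (x⁻¹ * g * x) = x⁻¹ * (x * u * x⁻¹ * g) * x := by group
        _ = x⁻¹ * g * x * u := by rw [h]; group

variable {P H : Subgroup G}

/-- A block of `H` induces `B` exactly when its central character is nonzero on the truncation of
the idempotent of `B`. -/
theorem exists_induced_iff_support (hM : IsPModular p M) (hP : IsPGroup p P) (hPH : P ≤ H)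
    (hCH : Subgroup.centralizer (P : Set G) ≤ H) (hHN : H ≤ Subgroup.normalizer (P : Set G))
    {B : Set (IrrCharacter G)} (hB : IsPBlock M B) :
    (∃ b : Set (IrrCharacter H), IsInducedBlock M H b B) ↔
      ∃ c : G, ¬ MemLocalIdeal M (blockCoeff B c) ∧ c ∈ Subgroup.centralizer (P : Set G) := by
  haveI := charP_res hM
  set T := truncHom (k := Res M) hP hCH hHN
  have hloc := memLocalRing_blockCoeff hB
  set e := idemRes M B hloc with he
  -- the central character of an induced block
  have hcomp : ∀ {b : Set (IrrCharacter H)} {B' : Set (IrrCharacter G)},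
      IsInducedBlock M H b B' → ∀ ξ ∈ b, ∀ χ ∈ B',
        omegaRes M ξ (T e) = omegaRes M χ e := by
    intro b B' h ξ hξ χ hχ
    have hbr := (isInducedBlock_iff_brauer hM hP hPH hHN h.1 h.2.1).1 h ξ hξ χ hχ
    have hext : (omegaRes M ξ).comp T = omegaRes M χ := by
      refine classHom_ext (fun r => ?_) fun g => ?_
      · rw [RingHom.comp_apply, truncHom_algebraMap, omegaRes_algebraMap, omegaRes_algebraMap]
      · obtain ⟨h1, e1⟩ := red_brauerCentralChar hM hP hCH hHN ξ g
        rw [RingHom.comp_apply, e1, omegaRes_classSumA, red_eq_red_iff]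
        exact hbr g
    rw [← hext]
    rfl
  constructor
  · rintro ⟨b, h⟩
    obtain ⟨ξ, hξ⟩ := isPBlock_nonempty h.1
    obtain ⟨χ, hχ⟩ := isPBlock_nonempty hB
    have h1 := hcomp h ξ hξ χ hχ
    rw [he, omegaRes_idemRes_of_mem _ hχ] at h1
    by_contra hcon
    push Not at hcon
    have h0 : T (idemRes M B hloc) = 0 := by
      refine Subtype.ext (MonoidAlgebra.ext (Finsupp.ext fun x => ?_))
      rw [coeff_truncHom]
      by_cases hx : (x : G) ∈ Subgroup.centralizer (P : Set G)
      · rw [truncFun_of_mem _ hx, (coeff_idemRes_eq_zero_iff hloc _).2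
          (by_contra fun hc => hcon _ hc hx)]
        rfl
      · rw [truncFun_of_notMem _ hx]
        rfl
    rw [h0, map_zero] at h1
    exact zero_ne_one h1
  · rintro ⟨c, hc, hcP⟩
    have hne : T e ≠ 0 := fun h0 => by
      refine hc ((coeff_idemRes_eq_zero_iff hloc c).1 ?_)
      have h1 := congrArg (fun z : classAlg (Res M) H =>
        (z : MonoidAlgebra (Res M) H).coeff ⟨c, hCH hcP⟩) h0
      simp only [T, coeff_truncHom] at h1
      rw [truncFun_of_mem _ (show ((⟨c, hCH hcP⟩ : H) : G) ∈ _ from hcP)] at h1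
      simpa [he] using h1
    obtain ⟨ξ, hξ⟩ : ∃ ξ : IrrCharacter H, omegaRes M ξ (T e) ≠ 0 := by
      by_contra hcon
      push Not at hcon
      exact hne (eq_zero_of_forall_omegaRes (by rw [← map_mul, he, idemRes_mul_self]) hcon)
    obtain ⟨B', hB'⟩ := inducedBlockDefined_of_le_normalizer hM hP hPH hCH hHN
      (isPBlock_blockOf (M := M) ξ)
    obtain ⟨χ', hχ'⟩ := isPBlock_nonempty hB'.2.1
    have h1 := hcomp hB' ξ (mem_blockOf_self ξ) χ' hχ'
    have hmem : χ' ∈ B := by
      by_contra hn
      rw [h1, he, omegaRes_idemRes_of_notMem _ hn] at hξ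
      exact hξ rfl
    exact ⟨_, isPBlock_eq_of_mem hB'.2.1 hB hχ' hmem ▸ hB'⟩

/-- The normal `p`-core of the normalizer of a defect group is that defect group. -/
theorem map_pCore_normalizer_eq (hM : IsPModular p M) {B : Set (IrrCharacter G)}
    (hB : IsPBlock M B) {D : Subgroup G} (hD : IsDefectGroup p M B D) :
    (pCore p (Subgroup.normalizer (D : Set G))).map
      (Subgroup.normalizer (D : Set G)).subtype = D := by
  classical
  haveI := charP_res hM
  have hDp := isPGroup_of_isDefectGroup hD
  have hDN : D ≤ Subgroup.normalizer (D : Set G) := Subgroup.le_normalizer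
  have hCN : Subgroup.centralizer (D : Set G) ≤ Subgroup.normalizer (D : Set G) :=
    Subgroup.centralizer_le_normalizer _
  have hsupp := (exists_support_centralizer_iff hM hB hD hDp).2 ⟨1, by rw [map_conj_one]⟩
  obtain ⟨b, hb⟩ := (exists_induced_iff_support hM hDp hDN hCN le_rfl hB).2 hsupp
  obtain ⟨g, hg, S, rfl⟩ := hD
  set D := (S : Subgroup (Subgroup.centralizer ({g} : Set G))).map
    (Subgroup.centralizer ({g} : Set G)).subtype with hDdef
  obtain ⟨ξ, hξ⟩ := isPBlock_nonempty hb.1
  obtain ⟨χ, hχ⟩ := isPBlock_nonempty hB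
  have hbr := (isInducedBlock_iff_brauer hM hDp hDN le_rfl hb.1 hB).1 hb ξ hξ χ hχ g
  have hne : omegaRes M ξ (truncHom hDp hCN le_rfl (classSumA (Res M) g)) ≠ 0 := by
    obtain ⟨h1, e1⟩ := red_brauerCentralChar hM hDp hCN le_rfl ξ g
    rw [e1, red_ne_zero_iff]
    exact not_memLocalIdeal_of_sub hbr (hg.2.2 χ hχ)
  set N := Subgroup.normalizer (D : Set G) with hN
  set Q := pCore p N with hQ
  have hQp : IsPGroup p Q := CfsgLib.Cores.isPGroup_pCore p N
  obtain ⟨h, hgh, hhC⟩ : ∃ h : N, IsConj g (h : G) ∧ h ∈ Subgroup.centralizer (Q : Set N) := by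
    by_contra hcon
    push Not at hcon
    apply hne
    refine isNilpotent_classHom_eq_zero _ ?_
    let S' : Set N := {h : N | IsConj g (h : G) ∧ (h : G) ∈ Subgroup.centralizer (D : Set G)}
    have hS' : ∀ c x : N, c * x * c⁻¹ ∈ S' ↔ x ∈ S' := fun c x => brauer_set_conj le_rfl g c x
    have hnil := isNilpotent_indicator (p := p) (k := Res M) Q hQp S' hS'
      (fun x hx hxS => hcon x hxS.1 hx)
    have e : (truncHom hDp hCN le_rfl (classSumA (Res M) g) : MonoidAlgebra (Res M) N) =
        ofFun fun h => if h ∈ S' then 1 else 0 := by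
      refine MonoidAlgebra.ext (Finsupp.ext fun x => ?_)
      rw [coeff_truncHom, coeff_ofFun]
      show truncFun D N (classSum (Res M) g) x = _
      by_cases hxC : (x : G) ∈ Subgroup.centralizer (D : Set G)
      · rw [truncFun_of_mem _ hxC, coeff_classSum]
        exact if_congr ⟨fun h => ⟨h, hxC⟩, fun h => h.1⟩ rfl rfl
      · rw [truncFun_of_notMem _ hxC, if_neg (fun h : x ∈ S' => hxC h.2)]
    rw [e]
    exact hnil
  -- `D ≤ Q`, and `Q` centralizes a conjugate of `g`
  have hDQ : D ≤ Q.map N.subtype := by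
    haveI : (D.subgroupOf N).Normal :=
      Subgroup.normal_subgroupOf_iff_le_normalizer hDN |>.mpr le_rfl
    have hle : D.subgroupOf N ≤ Q :=
      le_sSup ⟨inferInstance, hDp.comap_of_injective N.subtype Subtype.val_injective⟩
    intro u hu
    exact ⟨⟨u, hDN hu⟩, hle hu, rfl⟩
  refine (Subgroup.eq_of_le_of_card_ge hDQ ?_).symm
  have hQh : Q.map N.subtype ≤ Subgroup.centralizer ({(h : G)} : Set G) := by
    rintro _ ⟨q, hq, rfl⟩
    rw [Subgroup.mem_centralizer_singleton_iff]
    exact congrArg Subtype.val (Subgroup.mem_centralizer_iff.mp hhC q hq)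
  obtain ⟨c, hc⟩ := isConj_iff.mp hgh
  obtain ⟨T, hT⟩ := exists_sylow_map_ge ((hQp.map N.subtype).map _)
    (map_conj_le_centralizer hc hQh)
  have h2 := Subgroup.card_le_of_le hT
  rw [card_map_conj, card_sylow_map] at h2
  rw [hDdef, card_sylow_map]
  exact h2

end CfsgLib.BlockLocal
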