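import Cfsg.Agent.Lib.BrauerPairs.Covering
import Cfsg.Agent.Lib.BrauerPairs.CoverBridge
import Cfsg.Agent.Lib.BrauerPairs.Scalar
import Cfsg.Agent.Lib.BrauerPairs.BridgeDefect
import Cfsg.Agent.Lib.Blocks.Defect

/-!
# The covering blocks of largest defect
-/

set_option autoImplicit false
set_option linter.unusedSectionVars false
set_option linter.style.haveILetI false

open MonoidAlgebra Cfsg CfsgLib.BrauerPairs

namespace CfsgLib.BlockLocal

variable {G : Type*} [Group G] [Fintype G] {p : ℕ} [Fact p.Prime] {M : Ideal AlgInt} [M.IsPrime]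

theorem conjA_subIdem_of_invariant {N : Subgroup G} [hN : N.Normal]
    {b : Set (IrrCharacter N)} (hb : IsPBlock M b)
    (hinv : ∀ g : G, ∀ θ ∈ b, ∀ θ' : IrrCharacter N,
      (∀ n : N, (θ' : N → ℂ) n = (θ : N → ℂ) ⟨g * n * g⁻¹, hN.conj_mem n n.2 g⟩) → θ' ∈ b)
    (g : G) : conjA g (subIdem M N b) = subIdem M N b := by
  have hcj : N = cj g N := by
    ext x
    rw [mem_cj]
    exact ⟨fun h => by simpa using hN.conj_mem x h g⁻¹,
      fun h => by simpa [mul_assoc] using hN.conj_mem _ h g⟩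
  have hbl := Blocks.isPBlock_nonempty hb
  obtain ⟨θ, hθ⟩ := hbl
  have hmem : compIrr (cjEquiv g hcj) θ ∈ b := by
    refine hinv g⁻¹ θ hθ _ fun n => ?_
    show (θ : N → ℂ) (cjEquiv g hcj n) = _
    refine congrArg (θ : N → ℂ) (Subtype.ext ?_)
    show g⁻¹ * (n : G) * g = g⁻¹ * (n : G) * g⁻¹⁻¹
    rw [inv_inv]
  rw [← subIdem_image hcj b, Blocks.isPBlock_eq_of_mem (isPBlock_image_compIrr _ hb) hb
    ⟨θ, hθ, rfl⟩ hmem]

/-- The largest defect among the blocks covering an invariant block. -/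
theorem max_covering [M.IsMaximal] (hM : IsPModular p M) (N : Subgroup G) [hN : N.Normal]
    [Fintype N] {b : Set (IrrCharacter N)} (hb : IsPBlock M b)
    (hfix : ∀ g : G, conjA g (subIdem M N b) = subIdem M N b)
    {B : Set (IrrCharacter G)} (hB : IsPBlock M B)
    (hcov : ∃ χ ∈ B, ∃ θ ∈ b, classInner (fun n : N => (χ : G → ℂ) n) (θ : N → ℂ) ≠ 0)
    (hmax : ∀ B' : Set (IrrCharacter G), IsPBlock M B' →
      (∃ χ ∈ B', ∃ θ ∈ b, classInner (fun n : N => (χ : G → ℂ) n) (θ : N → ℂ) ≠ 0) →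
      blockDefect p B' ≤ blockDefect p B)
    {P : Subgroup G} (hP : IsDefectGroup p M B P) :
    ¬ p ∣ (P ⊔ N).index ∧ IsDefectGroup p M b ((P ⊓ N).subgroupOf N) ∧
      blockDefect p B = blockDefect p b + N.index.factorization p := by
  classical
  haveI := Blocks.charP_res hM
  haveI : IsAlgClosed (Blocks.Res M) := Blocks.isAlgClosed_res
  have hp : p.Prime := Fact.out
  set c := subIdem M N b with hc
  have hcb : IsBlockIdem N c := isBlockIdem_subIdem hb
  have hNn : Subgroup.normalizer (N : Set G) = ⊤ := Subgroup.normalizer_eq_top_iff.2 hN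
  have hTop : (⊤ : Subgroup G) ≤ Subgroup.normalizer (N : Set G) := hNn.ge
  have hctop : c ∈ fixedBy (Blocks.Res M) (⊤ : Subgroup G) := fun g _ => hfix g
  have hcctr : c ∈ ctr (Blocks.Res M) (⊤ : Subgroup G) :=
    mem_ctr.2 ⟨supp_mono le_top (mem_ctr.1 hcb.mem).1, hctop⟩
  set e := redElem M (blockCoeff B) with he
  have hbi : IsBlockIdem (⊤ : Subgroup G) e := isBlockIdem_redElem_blockCoeff hB
  have hbc0 : e * c ≠ 0 := (covers_iff N hB hb).1 hcov
  have hec : e * c = e := (hbi.2.2.2 c hcctr hcb.mul_self).resolve_left hbc0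
  have hPin := (isDefectGroup_iff hM hB).1 hP
  -- the intersection
  obtain ⟨d, hd, hed, -, hdD, -, -⟩ := exists_covered le_top hTop hbi hPin
  have hdc : d = c := by
    refine hd.eq_of_mul_ne_zero hcb fun h => hed ?_
    rw [← hec, mul_assoc, (ctr_commute hcb.mem hd.mem).eq, h, mul_zero]
  rw [hdc] at hdD
  have hD2 : IsDefectGroup p M b ((P ⊓ N).subgroupOf N) := by
    rw [isDefectGroup_sub_iff hM hb, Subgroup.subgroupOf, Subgroup.map_comap_eq,
      Subgroup.range_subtype, inf_eq_right.2 (inf_le_right : P ⊓ N ≤ N)]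
    exact hdD
  -- the defect group of `c` in `G`
  obtain ⟨D, hD⟩ := exists_isDefectIn (p := p) le_top hTop hcb hctop
  have hDT : IsDefectIn p (⊤ : Subgroup G) ⊤ c D := by
    obtain ⟨h1, h2, h3, a, ha, h4, h5⟩ := hD
    exact ⟨h1, h2, h3, a, supp_mono le_top ha, h4, h5⟩
  have hidx : ¬ p ∣ (D ⊔ N).index := by
    have h := hDT.relIndex_ne_zero hcb hctop le_top hTop
    rw [Subgroup.relIndex_top_right] at h
    exact fun hd => h ((CharP.cast_eq_zero_iff (Blocks.Res M) p _).2 hd)
  obtain ⟨f, hf, hfne⟩ : ∃ f, IsBlockIdem (⊤ : Subgroup G) f ∧ brau D (f * c) ≠ 0 := by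
    by_contra hall
    push Not at hall
    apply hD.2.2.1
    rw [← one_mul c, ← sum_blockIdems (⊤ : Subgroup G), Finset.sum_mul, map_sum]
    exact Finset.sum_eq_zero fun f hf => hall f (mem_blockIdems.1 hf)
  obtain ⟨B', hB', hf'⟩ := exists_isPBlock_of_isBlockIdem hf
  have hfc : f * c = f :=
    (hf.2.2.2 c hcctr hcb.mul_self).resolve_left fun h => hfne (by rw [h, map_zero])
  obtain ⟨Q, hQ⟩ := exists_isDefectGroup hM hB'
  have hQin := (isDefectGroup_iff hM hB').1 hQ
  rw [hf'] at hQin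
  have hDQ : Nat.card D ≤ Nat.card Q := by
    rw [hfc] at hfne
    obtain ⟨x, -, hx⟩ := hQin.exists_conj_le hD.2.1 le_top hfne
    have := Subgroup.card_le_of_le (map_conj_inv_le hx)
    rwa [Subgroup.card_map_of_injective (MulAut.conj x).injective] at this
  have hQP : Nat.card Q ≤ Nat.card P := by
    rw [Blocks.card_isDefectGroup hM hB' hQ, Blocks.card_isDefectGroup hM hB hP]
    refine Nat.pow_le_pow_right hp.pos (hmax B' hB' ((covers_iff N hB' hb).2 ?_))
    rw [hf', hfc]
    exact hf.ne_zero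
  have hbrP : brau P c ≠ 0 := by
    intro h
    apply hPin.2.2.1
    show brau P e = 0
    rw [← hec, trunc_centralizer_mul hPin.2.1 (hbi.fixed_of_le le_top)
      (fun g _ => hfix g), h, mul_zero]
  obtain ⟨y, -, hy⟩ := hD.exists_conj_le hPin.2.1 le_top hbrP
  have hPD : P = D.map (MulAut.conj y).toMonoidHom :=
    Subgroup.eq_of_le_of_card_ge (map_conj_inv_le hy) (by
      rw [Subgroup.card_map_of_injective (MulAut.conj y).injective]
      exact hDQ.trans hQP)
  have hidxP : ¬ p ∣ (P ⊔ N).index := by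
    have hmap : P ⊔ N = (D ⊔ N).map (MulAut.conj y).toMonoidHom := by
      rw [Subgroup.map_sup, ← hPD]
      congr 1
      ext x
      refine ⟨fun hx => ⟨y⁻¹ * x * y, by simpa using hN.conj_mem x hx y⁻¹, by simp [mul_assoc]⟩,
        ?_⟩
      rintro ⟨w, hw, rfl⟩
      exact hN.conj_mem w hw y
    rw [hmap, Subgroup.index_map_of_bijective (MulAut.conj y).bijective]
    exact hidx
  refine ⟨hidxP, hD2, ?_⟩
  have hB1 := Blocks.card_isDefectGroup hM hB hP
  have hb1 := Blocks.card_isDefectGroup hM hb hD2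
  rw [Nat.card_congr (Subgroup.subgroupOfEquivOfLe (inf_le_right : P ⊓ N ≤ N)).toEquiv] at hb1
  have hmul : Nat.card P = Nat.card ↥(P ⊓ N) * N.relIndex P := by
    rw [← Subgroup.inf_relIndex_left, ← Subgroup.card_mul_index ((P ⊓ N).subgroupOf P),
      Nat.card_congr (Subgroup.subgroupOfEquivOfLe (inf_le_left : P ⊓ N ≤ P)).toEquiv]
    rfl
  have hrel : N.relIndex P = N.relIndex (P ⊔ N) := (Subgroup.relIndex_sup_right P N).symm
  have hNidx : N.index = N.relIndex (P ⊔ N) * (P ⊔ N).index :=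
    (Subgroup.relIndex_mul_index le_sup_right).symm
  have hne : N.relIndex (P ⊔ N) ≠ 0 :=
    Subgroup.index_ne_zero_of_finite (H := N.subgroupOf (P ⊔ N))
  rw [hB1, hb1, hrel] at hmul
  have h := congrArg (fun n : ℕ => n.factorization p) hmul
  simp only [Nat.factorization_mul (pow_ne_zero _ hp.ne_zero) hne, Nat.factorization_pow,
    Finsupp.add_apply, Finsupp.smul_apply, hp.factorization_self, smul_eq_mul, mul_one] at h
  rw [h, hNidx, Nat.factorization_mul hne Subgroup.index_ne_zero_of_finite, Finsupp.add_apply,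
    Nat.factorization_eq_zero_of_not_dvd hidxP, add_zero]

end CfsgLib.BlockLocal
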