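import Cfsg.Agent.Lib.BlockLocal.KleinFour
import Cfsg.Agent.Lib.BrauerCharacters.BlockEntries
import Cfsg.Agent.Lib.CharTheory.Convolution
import Cfsg.Agent.S0201
import Cfsg.Agent.S0950
import Cfsg.Agent.S0942
import Cfsg.Agent.S0947

/-!
# The principal block for a quaternion Sylow subgroup of order eight
-/

set_option autoImplicit false
set_option linter.unusedSectionVars false
set_option linter.style.haveILetI false

open Cfsg CfsgLib.CharTheory CfsgLib.Blocks Finset
open scoped ComplexConjugate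

namespace CfsgLib.BlockLocal

universe u

variable {G : Type u} [Group G] [Fintype G]

theorem q8_elements : ∀ g : QuaternionGroup 2,
    g = 1 ∨ g = QuaternionGroup.a 2 ∨ (g ^ 2 = QuaternionGroup.a 2 ∧ g ^ 4 = 1) := by decide

theorem q8_conj_inv : ∀ g : QuaternionGroup 2, g ^ 2 = QuaternionGroup.a 2 →
    ∃ h, h * g * h⁻¹ = g ^ 3 := by decide

theorem q8_centralizer : ∀ g h : QuaternionGroup 2, g ^ 2 = QuaternionGroup.a 2 → g * h = h * g →
    h = 1 ∨ h = g ∨ h = g ^ 2 ∨ h = g ^ 3 := by decide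

/-- The central involution. -/
theorem exists_central_involution (S : Sylow 2 G) (e : (S : Subgroup G) ≃* QuaternionGroup 2)
    (hO : ∀ N : Subgroup G, N.Normal → Odd (Nat.card N) → N = ⊥) :
    ((e.symm (QuaternionGroup.a 2) : (S : Subgroup G)) : G) ∈ Subgroup.center G := by
  have hZ : Nat.card (Subgroup.center G) = 2 := Cfsg.Agent.S0201.result S 0 e hO
  obtain ⟨w, hw⟩ := exists_prime_orderOf_dvd_card' (G := Subgroup.center G) 2 (by rw [hZ])
  have hwG : orderOf (w : G) = 2 := by rw [Subgroup.orderOf_coe]; exact hw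
  obtain ⟨Q, hQ⟩ := (IsPGroup.of_card (p := 2) (n := 1) (by rw [Nat.card_zpowers, hwG, pow_one]) :
    IsPGroup 2 (Subgroup.zpowers (w : G))).exists_le_sylow
  obtain ⟨c, hc⟩ := MulAction.exists_smul_eq G Q S
  have hwS : (w : G) ∈ (S : Subgroup G) := by
    rw [← hc, Sylow.coe_subgroup_smul, Subgroup.mem_pointwise_smul_iff_inv_smul_mem]
    have h : c⁻¹ * (w : G) * c = (w : G) := by
      rw [mul_assoc, ← Subgroup.mem_center_iff.1 w.2 c, inv_mul_cancel_left]
    simpa [MulAut.smul_def, h] using hQ (Subgroup.mem_zpowers (w : G))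
  have hw2 : (e ⟨w, hwS⟩) = QuaternionGroup.a 2 := by
    have ho : orderOf (e ⟨w, hwS⟩) = 2 := by rw [e.orderOf_eq, Subgroup.orderOf_mk, hwG]
    rcases q8_elements (e ⟨w, hwS⟩) with h | h | ⟨h, -⟩
    · rw [h, orderOf_one] at ho; norm_num at ho
    · exact h
    · have h1 := pow_orderOf_eq_one (e ⟨w, hwS⟩)
      rw [ho, h] at h1
      exact absurd h1 (by decide)
  rw [← hw2, e.symm_apply_apply]
  exact w.2

variable {M : Ideal AlgInt} [M.IsPrime]

/-- The principal block has seven members. -/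
theorem card_principalBlock_quaternion (hM : IsPModular 2 M) (S : Sylow 2 G)
    (e : (S : Subgroup G) ≃* QuaternionGroup 2)
    (hO : ∀ N : Subgroup G, N.Normal → Odd (Nat.card N) → N = ⊥)
    (hG : (S : Subgroup G) ≠ ⊤) : Nat.card (principalBlock M G) = 7 := by
  classical
  haveI := Fintype.ofFinite (IrrCharacter G)
  set z : G := ((e.symm (QuaternionGroup.a 2) : (S : Subgroup G)) : G) with hz
  set i : G := ((e.symm (QuaternionGroup.a 1) : (S : Subgroup G)) : G) with hi
  have hzc : ∀ g, g * z = z * g := fun g =>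
    Subgroup.mem_center_iff.1 (exists_central_involution S e hO) g
  have heq : ∀ (x : G) (hx : x ∈ (S : Subgroup G)) (q : QuaternionGroup 2),
      e ⟨x, hx⟩ = q → x = ((e.symm q : (S : Subgroup G)) : G) := fun x hx q h => by
    rw [← h, e.symm_apply_apply]
  have hiz : i ^ 2 = z := by
    rw [hi, hz, ← SubgroupClass.coe_pow, ← map_pow]
    exact congrArg (fun q => ((e.symm q : (S : Subgroup G)) : G)) (by decide)
  have hzz : z * z = 1 := by
    rw [hz, ← Subgroup.coe_mul, ← map_mul]
    rw [show (QuaternionGroup.a 2 : QuaternionGroup 2) * QuaternionGroup.a 2 = 1 by decide, map_one]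
    rfl
  have hzne : z ≠ 1 := fun h => by
    have h' : e.symm (QuaternionGroup.a 2) = 1 := Subtype.ext h
    exact absurd (e.symm.map_eq_one_iff.1 h') (by decide)
  have hi4 : orderOf i = 2 ^ 2 := by
    refine orderOf_eq_prime_pow (p := 2) (n := 1) ?_ ?_
    · rw [pow_one, hiz]; exact hzne
    · rw [show (2 : ℕ) ^ (1 + 1) = 2 * 2 from rfl, pow_mul, hiz, pow_two, hzz]
  have hine : i ≠ 1 := fun h => by simp [h] at hi4
  -- all elements of order four are conjugate
  have hnc : ∀ N : Subgroup G, N.Normal → ¬ Subgroup.IsComplement' N (S : Subgroup G) := by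
    intro N hN hc
    have hcard : Nat.card (S : Subgroup G) = 8 := by
      rw [Nat.card_congr e.toEquiv, Nat.card_eq_fintype_card, QuaternionGroup.card]
    have hodd : Odd (Nat.card N) := by
      rw [Nat.odd_iff, ← Nat.two_dvd_ne_zero]
      intro hd
      have h1 := S.not_dvd_index (p := 2)
      rw [hc.index_eq_card] at h1
      exact h1 hd
    have hb := hO N hN hodd
    rw [hb, Subgroup.isComplement'_bot_left] at hc
    exact hG hc
  have hconj4 : ∀ x ∈ (S : Subgroup G), x ^ 2 = z → IsConj x i := by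
    intro x hx hxz
    have hox : orderOf x = 2 ^ 2 := by
      refine orderOf_eq_prime_pow (p := 2) (n := 1) ?_ ?_
      · rw [pow_one, hxz]; exact hzne
      · rw [show (2 : ℕ) ^ (1 + 1) = 2 * 2 from rfl, pow_mul, hxz, pow_two, hzz]
    obtain ⟨n, -, hn⟩ := Cfsg.Agent.S0950.result S e hnc (Subgroup.zpowers x) (Subgroup.zpowers i)
      (Subgroup.zpowers_le.2 hx) (Subgroup.zpowers_le.2 (e.symm (QuaternionGroup.a 1)).2)
      (by rw [Nat.card_zpowers, hox]; norm_num) (by rw [Nat.card_zpowers, hi4]; norm_num)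
    rw [MonoidHom.map_zpowers] at hn
    have hmem : n * x * n⁻¹ ∈ Subgroup.zpowers i := hn ▸ Subgroup.mem_zpowers _
    have hsq : (n * x * n⁻¹) ^ 2 = z := by
      rw [conj_pow, hxz, hzc n, mul_inv_cancel_right]
    obtain ⟨k, hk, hk'⟩ := (IsOfFinOrder.mem_zpowers_iff_mem_range_orderOf
      (isOfFinOrder_of_finite i)).1 hmem |> Finset.mem_image.1
    refine (isConj_iff.2 ⟨n, rfl⟩).trans ?_
    rw [hi4, Finset.mem_range] at hk
    have h3 : IsConj (i ^ 3) i := by
      obtain ⟨h, hh⟩ := q8_conj_inv (QuaternionGroup.a 1) (by decide)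
      refine (isConj_iff.2 ⟨((e.symm h : (S : Subgroup G)) : G), ?_⟩).symm
      rw [hi, ← SubgroupClass.coe_pow, ← map_pow, ← hh, map_mul, map_mul, map_inv]
      rfl
    rw [← hk'] at hsq ⊢
    interval_cases k
    · exact absurd (by simpa using hsq.symm) hzne
    · rw [pow_one]
    · rw [hiz, pow_two, hzz] at hsq
      exact absurd hsq.symm hzne
    · exact h3
  have hinvconj : IsConj i (z * i) := by
    obtain ⟨h, hh⟩ := q8_conj_inv (QuaternionGroup.a 1) (by decide)
    refine isConj_iff.2 ⟨((e.symm h : (S : Subgroup G)) : G), ?_⟩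
    rw [← hiz, ← pow_succ, hi, ← SubgroupClass.coe_pow, ← map_pow, ← hh, map_mul, map_mul,
      map_inv]
    rfl
  -- two-elements
  have hclass : ∀ x : G, (∃ k : ℕ, orderOf x = 2 ^ k) → x = 1 ∨ x = z ∨ IsConj x i := by
    intro x hxk
    obtain ⟨k, hk⟩ := hxk
    obtain ⟨Q, hQ⟩ := (IsPGroup.of_card (p := 2) (n := k)
      (by rw [Nat.card_zpowers, hk]) : IsPGroup 2 (Subgroup.zpowers x)).exists_le_sylow
    obtain ⟨c, hc⟩ := MulAction.exists_smul_eq G Q S
    have hcx : c * x * c⁻¹ ∈ (S : Subgroup G) := by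
      rw [← hc, Sylow.coe_subgroup_smul, Subgroup.mem_pointwise_smul_iff_inv_smul_mem]
      simpa [MulAut.smul_def, mul_assoc] using hQ (Subgroup.mem_zpowers x)
    rcases q8_elements (e ⟨_, hcx⟩) with h | h | ⟨h, -⟩
    · left
      have h' := heq _ hcx _ h
      rw [map_one, OneMemClass.coe_one] at h'
      exact conj_eq_one_iff.1 h'
    · right; left
      have h' := heq _ hcx _ h
      rw [← hz] at h'
      rw [mul_inv_eq_iff_eq_mul, ← hzc] at h'
      exact mul_left_cancel h'
    · right; right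
      refine (isConj_iff.2 ⟨c, rfl⟩).trans (hconj4 _ hcx ?_)
      rw [← map_pow] at h
      exact congrArg Subtype.val ((e.symm_apply_apply _).symm.trans (congrArg e.symm h))
  -- the centralizer of `i`
  set C := Subgroup.centralizer ({i} : Set G) with hC
  have hiC : i ∈ C := Subgroup.mem_centralizer_singleton_iff.2 rfl
  obtain ⟨hncC, hfac⟩ : (∃ k : ℕ, (pPrimeCore 2 C).index = 2 ^ k) ∧
      (Nat.card C).factorization 2 = 2 := by
    set ic : C := ⟨i, hiC⟩ with hic
    have hoic : orderOf ic = 2 ^ 2 := by rw [← Subgroup.orderOf_coe]; exact hi4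
    obtain ⟨T, hT⟩ := (IsPGroup.of_card (p := 2) (n := 2) (by rw [Nat.card_zpowers, hoic]) :
      IsPGroup 2 (Subgroup.zpowers ic)).exists_le_sylow
    have hTeq : (T : Subgroup C) = Subgroup.zpowers ic := by
      refine le_antisymm (fun t ht => ?_) hT
      obtain ⟨Q, hQ⟩ := (T.2.map C.subtype).exists_le_sylow
      obtain ⟨c, hc⟩ := MulAction.exists_smul_eq G Q S
      have hmem : ∀ w : C, w ∈ (T : Subgroup C) → c * (w : G) * c⁻¹ ∈ (S : Subgroup G) := by
        intro w hw
        rw [← hc, Sylow.coe_subgroup_smul, Subgroup.mem_pointwise_smul_iff_inv_smul_mem]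
        simpa [MulAut.smul_def, mul_assoc] using hQ ⟨w, hw, rfl⟩
      have hI := hmem ic (hT (Subgroup.mem_zpowers ic))
      have hW := hmem t ht
      have hcomm : (e ⟨_, hI⟩) * (e ⟨_, hW⟩) = (e ⟨_, hW⟩) * (e ⟨_, hI⟩) := by
        rw [← map_mul, ← map_mul]
        refine congrArg e (Subtype.ext ?_)
        show c * i * c⁻¹ * (c * (t : G) * c⁻¹) = c * (t : G) * c⁻¹ * (c * i * c⁻¹)
        rw [conj_mul, conj_mul, Subgroup.mem_centralizer_singleton_iff.1 t.2]
      have hsq : e ⟨_, hI⟩ ^ 2 = QuaternionGroup.a 2 := by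
        rw [← map_pow]
        refine e.apply_eq_iff_symm_apply.2 ?_
        refine Subtype.ext ?_
        rw [SubgroupClass.coe_pow]
        show (c * i * c⁻¹) ^ 2 = z
        rw [conj_pow, hiz, hzc c, mul_inv_cancel_right]
      have key : ∀ k : ℕ, e ⟨_, hW⟩ = e ⟨_, hI⟩ ^ k → t ∈ Subgroup.zpowers ic := by
        intro k hk
        rw [← map_pow] at hk
        have h : c * (t : G) * c⁻¹ = (c * i * c⁻¹) ^ k := congrArg Subtype.val (e.injective hk)
        rw [conj_pow] at h
        have h' : t = ic ^ k := Subtype.ext (by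
          rw [SubgroupClass.coe_pow]; exact mul_left_cancel (mul_right_cancel h))
        rw [h']
        exact pow_mem (Subgroup.mem_zpowers ic) k
      rcases q8_centralizer _ _ hsq hcomm with h | h | h | h
      · exact key 0 (by rw [pow_zero]; exact h)
      · exact key 1 (by rw [pow_one]; exact h)
      · exact key 2 h
      · exact key 3 h
    have hNC : Subgroup.normalizer ((T : Subgroup C) : Set C) ≤
        Subgroup.centralizer ((T : Subgroup C) : Set C) := by
      intro n _
      rw [Subgroup.mem_centralizer_iff]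
      intro u hu
      have hu' : u ∈ Subgroup.zpowers ic := hTeq ▸ hu
      obtain ⟨k, rfl⟩ := Subgroup.mem_zpowers_iff.1 hu'
      have hcn : Commute ic n := Subtype.ext (Subgroup.mem_centralizer_singleton_iff.1 n.2).symm
      exact (hcn.zpow_left k).eq
    have hKc := MonoidHom.ker_transferSylow_isComplement' T hNC
    have hKn := MonoidHom.not_dvd_card_ker_transferSylow T hNC
    set K := (MonoidHom.transferSylow T hNC).ker
    have hcard4 : Nat.card (T : Subgroup C) = 2 ^ 2 := by rw [hTeq, Nat.card_zpowers, hoic]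
    have hKle : K ≤ pPrimeCore 2 C :=
      le_sSup ⟨inferInstance, (Nat.prime_two.coprime_iff_not_dvd.2 hKn).symm⟩
    refine ⟨?_, ?_⟩
    · have hd := Subgroup.index_dvd_of_le hKle
      rw [hKc.symm.index_eq_card, hcard4] at hd
      obtain ⟨k, -, hk⟩ := (Nat.dvd_prime_pow Nat.prime_two).1 hd
      exact ⟨k, hk⟩
    · rw [← hKc.card_mul, hcard4, Nat.factorization_mul Nat.card_pos.ne' (by norm_num),
        Finsupp.add_apply, Nat.factorization_eq_zero_of_not_dvd hKn, zero_add,
        Nat.Prime.factorization_pow Nat.prime_two, Finsupp.single_eq_same]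
  -- the block
  set B := principalBlock M G with hB
  have hBB : IsPBlock M B := principalBlock_isPBlock M G
  set t := trivIrr G with ht
  have htB : t ∈ B := trivIrr_mem_principalBlock G
  have hik : ∃ k : ℕ, orderOf i = 2 ^ k := ⟨2, hi4⟩
  choose m hm using fun χ : IrrCharacter G => exists_nat_sum_subgroup (Subgroup.zpowers i) χ
  -- the sections
  have hsec : ∀ g : G, ¬ 2 ∣ orderOf g ∨ (∃ s : G, ¬ 2 ∣ orderOf s ∧ g = z * s) ∨
      ∃ (c : G) (y : C), ¬ 2 ∣ orderOf y ∧ c * g * c⁻¹ = i * (y : G) := by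
    intro g
    obtain ⟨x, hx⟩ := exists_isPPart 2 g
    obtain ⟨y, hy, -, hxk, hyr⟩ := id hx
    rcases hclass x hxk with h | h | h
    · left
      rw [← hy, h, one_mul]
      exact hyr
    · right; left
      exact ⟨y, hyr, by rw [← hy, h]⟩
    · right; right
      obtain ⟨c, hc⟩ := isConj_iff.1 h
      have hx' := IsPPart.conj hx c
      rw [hc] at hx'
      obtain ⟨y', hy', hcom, -, hyr'⟩ := hx'
      exact ⟨c, ⟨y', Subgroup.mem_centralizer_singleton_iff.2 hcom.eq.symm⟩,
        by rwa [← Subgroup.orderOf_coe], hy'.symm⟩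
  have hXconst : ∀ χ ∈ B, ∀ (c : G) (y : C) (g : G), ¬ 2 ∣ orderOf y →
      c * g * c⁻¹ = i * (y : G) → (χ : G → ℂ) g = (χ : G → ℂ) i := by
    intro χ hχ c y g hy hg
    rw [← IsIrrCharacter.isClassFunction χ.2 g c, hg]
    refine Cfsg.Agent.S0942.result 2 M hM i hik (y : G) ?_ χ hχ
    exact Subgroup.mem_map.2 ⟨y, mem_of_p_regular hncC hy, rfl⟩
  have hzord : orderOf z = 2 := orderOf_eq_prime (by rw [pow_two]; exact hzz) hzne
  have hzs : ∀ s : G, ¬ 2 ∣ orderOf s → 2 ∣ orderOf (z * s) := by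
    intro s hs
    rw [Commute.orderOf_mul_eq_mul_orderOf_of_coprime (show Commute z s from (hzc s).symm)
      (by rw [hzord]; exact Nat.prime_two.coprime_iff_not_dvd.2 hs), hzord]
    exact dvd_mul_right 2 _
  -- kernels at `z`
  have hsign : ∀ χ : IrrCharacter G, (∀ g, (χ : G → ℂ) (z * g) = (χ : G → ℂ) g) ∨
      (∀ g, (χ : G → ℂ) (z * g) = - (χ : G → ℂ) g) := by
    intro χ
    have hd := apply_one_ne_zero_of_isIrr χ.2
    have hmul : ∀ g, (χ : G → ℂ) (z * g) = (χ : G → ℂ) z * (χ : G → ℂ) g / (χ : G → ℂ) 1 := by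
      intro g
      have h := IsIrrCharacter.sum_conj_mul χ.2 z g
      rw [sum_congr rfl (g := fun _ => (χ : G → ℂ) (z * g)) (fun x _ => by
        rw [hzc x, mul_inv_cancel_right]), sum_const, card_univ, nsmul_eq_mul,
        ← Nat.card_eq_fintype_card, mul_assoc, mul_div_assoc] at h
      exact mul_left_cancel₀ (Nat.cast_ne_zero.2 Nat.card_pos.ne') h
    have h1 := hmul z
    rw [hzz, eq_div_iff hd] at h1
    rcases mul_self_eq_mul_self_iff.1 h1.symm with h | h
    · left; intro g
      rw [hmul, h, mul_comm, mul_div_assoc, div_self hd, mul_one]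
    · right; intro g
      rw [hmul, h, neg_mul, neg_div, mul_comm, mul_div_assoc, div_self hd, mul_one]
  set T : Finset (IrrCharacter G) :=
    univ.filter fun χ => χ ∈ B ∧ ∀ g, (χ : G → ℂ) (z * g) = (χ : G → ℂ) g with hT
  set F : Finset (IrrCharacter G) :=
    univ.filter fun χ => χ ∈ B ∧ ∀ g, (χ : G → ℂ) (z * g) = - (χ : G → ℂ) g with hF
  have hTF : Disjoint T F := by
    rw [Finset.disjoint_left]
    intro χ hχ hχ'
    have h1 := (mem_filter.1 hχ).2.2 1
    rw [(mem_filter.1 hχ').2.2 1] at h1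
    exact apply_one_ne_zero_of_isIrr χ.2 (CharZero.neg_eq_self_iff.1 h1)
  have hTFB : ∀ χ, χ ∈ T ∪ F ↔ χ ∈ B := by
    intro χ
    simp only [hT, hF, mem_union, mem_filter, mem_univ, true_and]
    exact ⟨fun h => h.elim And.left And.left, fun h => (hsign χ).imp (⟨h, ·⟩) (⟨h, ·⟩)⟩
  have hF0 : ∀ χ ∈ F, (χ : G → ℂ) i = 0 := by
    intro χ hχ
    have h := irr_apply_eq_of_isConj hinvconj χ
    rw [(mem_filter.1 hχ).2.2 i] at h
    exact CharZero.neg_eq_self_iff.1 h.symm
  have hTint : ∀ χ ∈ T, ∃ a : ℤ, (χ : G → ℂ) i = (a : ℂ) := by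
    intro χ hχ
    refine ⟨2 * (m χ : ℤ) - (charDegree (χ : G → ℂ) : ℤ), ?_⟩
    have hcard : Nat.card (Subgroup.zpowers i) = 4 := by rw [Nat.card_zpowers, hi4]; norm_num
    have hval : ∀ k : ℕ, (χ : G → ℂ) (i ^ (2 * k)) = (χ : G → ℂ) 1 := by
      intro k
      rw [pow_mul, hiz]
      induction k with
      | zero => rw [pow_zero]
      | succ k ih => rw [pow_succ', (mem_filter.1 hχ).2.2, ih]
    have hsum : ∑ k : Subgroup.zpowers i, (χ : G → ℂ) k =
        ∑ k ∈ Finset.range 4, (χ : G → ℂ) (i ^ k) := by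
      symm
      refine Finset.sum_bij (fun k _ => (⟨i ^ k, pow_mem (Subgroup.mem_zpowers i) k⟩ :
        Subgroup.zpowers i)) (fun _ _ => mem_univ _) ?_ ?_ (fun _ _ => rfl)
      · intro a ha b hb hab
        refine pow_injOn_Iio_orderOf ?_ ?_ (congrArg Subtype.val hab)
        · simpa [hi4] using ha
        · simpa [hi4] using hb
      · intro b _
        obtain ⟨k, hk, hk'⟩ := (IsOfFinOrder.mem_zpowers_iff_mem_range_orderOf
          (isOfFinOrder_of_finite i)).1 b.2 |> Finset.mem_image.1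
        exact ⟨k, by simpa [hi4] using hk, Subtype.ext hk'⟩
    have h := hm χ
    rw [hsum, hcard, sum_range_succ, sum_range_succ, sum_range_succ, sum_range_one, pow_one,
      show (0 : ℕ) = 2 * 0 from rfl, hval 0, show (2 : ℕ) = 2 * 1 from rfl, hval 1,
      show i ^ 3 = z * i by rw [← hiz, ← pow_succ], (mem_filter.1 hχ).2.2] at h
    push_cast
    rw [coe_charDegree]
    push_cast at h
    linear_combination (1 / 2 : ℂ) * h
  choose! a ha using hTint
  have htT : t ∈ T := mem_filter.2 ⟨mem_univ _, htB, fun _ => rfl⟩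
  have hat : a t = 1 := by
    have h1 : ((a t : ℤ) : ℂ) = ((1 : ℤ) : ℂ) := by rw [← ha t htT, Int.cast_one]; rfl
    exact_mod_cast h1
  -- sum of squares
  have hsum4 : ∑ χ ∈ T, a χ ^ 2 = 4 := by
    have h := (Cfsg.Agent.S0947.result 2 M hM i hik hine 1
      (by rw [orderOf_one]; decide)).2 hncC
    rw [hfac, OneMemClass.coe_one, mul_one, finsum_mem_eq_finite_toFinset_sum _ B.toFinite] at h
    have hBT : B.toFinite.toFinset = T ∪ F := Finset.ext fun χ => by rw [hTFB]; simp
    rw [hBT, sum_union hTF, sum_eq_zero (s := F) (fun χ hχ => by rw [hF0 χ hχ]; simp),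
      add_zero] at h
    have h2 : ((∑ χ ∈ T, a χ ^ 2 : ℤ) : ℝ) = ((4 : ℤ) : ℝ) := by
      rw [Int.cast_sum]
      refine Eq.trans (sum_congr rfl fun χ hχ => ?_) (h.trans ?_)
      · rw [ha χ hχ, Complex.norm_intCast, sq_abs, Int.cast_pow]
      · norm_num
    exact_mod_cast h2
  -- the three parts of a sum
  set X : Finset G :=
    univ.filter (fun g => 2 ∣ orderOf g ∧ 2 ∣ orderOf (z * g)) with hX
  set R : Finset G := univ.filter (fun g => ¬ 2 ∣ orderOf g) with hR
  have hXval : ∀ χ ∈ B, ∀ g ∈ X, (χ : G → ℂ) g = (χ : G → ℂ) i := by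
    intro χ hχ g hg
    obtain ⟨h1, h2⟩ := (mem_filter.1 hg).2
    rcases hsec g with h | ⟨s, hs, rfl⟩ | ⟨c, y, hy, hc⟩
    · exact absurd h1 h
    · rw [← mul_assoc, hzz, one_mul] at h2
      exact absurd h2 hs
    · exact hXconst χ hχ c y g hy hc
  have hsplit : ∀ f : G → ℂ, ∑ g, f g = (∑ g ∈ R, (f g + f (z * g))) + ∑ g ∈ X, f g := by
    intro f
    have hd : Disjoint R (R.map (Equiv.mulLeft z).toEmbedding) := by
      rw [Finset.disjoint_left]
      intro g hg hg'
      obtain ⟨s, hs, rfl⟩ := Finset.mem_map.1 hg'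
      exact (mem_filter.1 hg).2 (hzs s (mem_filter.1 hs).2)
    have hd2 : Disjoint (R ∪ R.map (Equiv.mulLeft z).toEmbedding) X := by
      rw [Finset.disjoint_left]
      intro g hg hg'
      obtain ⟨h1, h2⟩ := (mem_filter.1 hg').2
      rcases mem_union.1 hg with h | h
      · exact (mem_filter.1 h).2 h1
      · obtain ⟨s, hs, rfl⟩ := Finset.mem_map.1 h
        rw [Equiv.coe_toEmbedding, Equiv.coe_mulLeft, ← mul_assoc, hzz, one_mul] at h2
        exact (mem_filter.1 hs).2 h2
    have hu : R ∪ R.map (Equiv.mulLeft z).toEmbedding ∪ X = univ := by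
      refine eq_univ_of_forall fun g => ?_
      by_cases h1 : 2 ∣ orderOf g
      · by_cases h2 : 2 ∣ orderOf (z * g)
        · exact mem_union_right _ (mem_filter.2 ⟨mem_univ _, h1, h2⟩)
        · refine mem_union_left _ (mem_union_right _ (Finset.mem_map.2 ⟨z * g,
            mem_filter.2 ⟨mem_univ _, h2⟩, ?_⟩))
          show z * (z * g) = g
          rw [← mul_assoc, hzz, one_mul]
      · exact mem_union_left _ (mem_union_left _ (mem_filter.2 ⟨mem_univ _, h1⟩))
    rw [← hu, sum_union hd2, sum_union hd, sum_map, sum_add_distrib]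
    rfl
  have hN : (Nat.card G : ℂ) ≠ 0 := Nat.cast_ne_zero.2 Nat.card_pos.ne'
  have horth : ∀ χ ψ : IrrCharacter G, ∑ g, (χ : G → ℂ) g * conj ((ψ : G → ℂ) g) =
      if χ = ψ then (Nat.card G : ℂ) else 0 := by
    intro χ ψ
    have h := classInner_irrCharacter χ ψ
    rw [classInner, inv_mul_eq_iff_eq_mul₀ hN] at h
    rw [h]
    split_ifs <;> simp
  have hTrow : ∀ χ ∈ T, 2 * ∑ g ∈ R, (χ : G → ℂ) g + (X.card : ℂ) * (a χ : ℂ) =
      if χ = t then (Nat.card G : ℂ) else 0 := by
    intro χ hχ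
    rw [← horth χ t, hsplit, mul_sum]
    congr 1
    · refine sum_congr rfl fun g _ => ?_
      rw [(mem_filter.1 hχ).2.2, show ∀ g, (t : G → ℂ) g = 1 from fun _ => rfl,
        show ∀ g, (t : G → ℂ) g = 1 from fun _ => rfl, map_one]
      ring
    · rw [sum_congr rfl (g := fun _ => (a χ : ℂ)) (fun g hg => by
        rw [hXval χ (mem_filter.1 hχ).2.1 g hg, ha χ hχ,
          show ∀ g, (t : G → ℂ) g = 1 from fun _ => rfl, map_one, mul_one]), sum_const,
        nsmul_eq_mul]
  have hne : ∀ χ ∈ T, a χ ≠ 0 := by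
    intro χ hχ h0
    have hχt : χ ≠ t := fun h => by rw [h, hat] at h0; exact one_ne_zero h0
    have h := hTrow χ hχ
    rw [if_neg hχt, h0, Int.cast_zero, mul_zero, add_zero] at h
    have hpair : pairReg 2 (χ : G → ℂ) (t : G → ℂ) = 0 := by
      rw [pairReg, ← (mul_eq_zero.1 h).resolve_left two_ne_zero, hR, sum_filter]
      refine sum_congr rfl fun x _ => ?_
      rw [regInv]
      split_ifs with hx
      · exact zero_mul _
      · rw [show (t : G → ℂ) x⁻¹ = 1 from rfl, one_mul]
    have h1 := memLocalIdeal_pairReg_div_sub (M := M) 2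
      (sameBlock_of_mem hBB (mem_filter.1 hχ).2.1 htB) t
    rw [hpair, zero_div, zero_sub] at h1
    have h2 := memLocalIdeal_neg h1
    rw [neg_neg] at h2
    exact not_memLocalIdeal_pairReg' hM hBB htB (blockHeight_trivIrr B) h2
  have hone : ∀ χ ∈ T, a χ ^ 2 = 1 := by
    intro χ hχ
    have h1 : 0 < a χ ^ 2 := by have := hne χ hχ; positivity
    by_cases h : χ = t
    · rw [h, hat]; norm_num
    · have h2 : a χ ^ 2 + a t ^ 2 ≤ 4 := by
        rw [← hsum4, ← sum_pair (f := fun x => a x ^ 2) h]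
        refine sum_le_sum_of_subset_of_nonneg ?_ fun x _ _ => sq_nonneg _
        exact fun x hx => by
          rcases mem_insert.1 hx with rfl | hx
          · exact hχ
          · rw [mem_singleton.1 hx]; exact htT
      rw [hat] at h2
      have h3 : a χ < 2 := by nlinarith
      have h4 : -2 < a χ := by nlinarith
      have h5 := hne χ hχ
      interval_cases h6 : a χ <;> simp_all
  have hTcard : T.card = 4 := by
    have h := hsum4
    rw [sum_congr rfl hone, sum_const, nsmul_eq_mul, mul_one] at h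
    exact_mod_cast h
  -- orthogonality of the regular columns with the others
  have hcol : ∀ g h : G, ¬ 2 ∣ orderOf g → 2 ∣ orderOf h →
      ∑ χ ∈ T ∪ F, (χ : G → ℂ) g * (χ : G → ℂ) h = 0 := by
    intro g h hg hh
    have h1 := weakOrth_mul hM B hBB g h hg hh
    rw [finsum_mem_eq_finite_toFinset_sum _ B.toFinite] at h1
    rwa [show B.toFinite.toFinset = T ∪ F from Finset.ext fun χ => by rw [hTFB]; simp] at h1
  have hieven : 2 ∣ orderOf i := by rw [hi4]; norm_num
  have hXcard : 4 * (X.card : ℂ) = (Nat.card G : ℂ) := by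
    have h0 : ∑ χ ∈ T, (a χ : ℂ) * ∑ g ∈ R, (χ : G → ℂ) g = 0 := by
      simp only [mul_sum]
      rw [sum_comm]
      refine sum_eq_zero fun g hg => ?_
      have h := hcol g i (mem_filter.1 hg).2 hieven
      rw [sum_union hTF, sum_eq_zero (s := F) (fun χ hχ => by rw [hF0 χ hχ, mul_zero]),
        add_zero] at h
      rw [← h]
      exact sum_congr rfl fun χ hχ => by rw [ha χ hχ, mul_comm]
    have h1 : ∑ χ ∈ T, (a χ : ℂ) * (2 * ∑ g ∈ R, (χ : G → ℂ) g + (X.card : ℂ) * (a χ : ℂ)) =
        (Nat.card G : ℂ) := by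
      rw [sum_congr rfl (fun χ hχ => by rw [hTrow χ hχ]), sum_eq_single t, if_pos rfl, hat,
        Int.cast_one, one_mul]
      · intro χ _ hne'; rw [if_neg hne', mul_zero]
      · exact fun h => absurd htT h
    rw [← h1, sum_congr rfl (g := fun χ : IrrCharacter G =>
      2 * ((a χ : ℂ) * ∑ g ∈ R, (χ : G → ℂ) g) + (X.card : ℂ)) (fun χ hχ => by
      have : ((a χ : ℂ)) * (a χ : ℂ) = 1 := by
        rw [← pow_two]; exact_mod_cast hone χ hχ
      linear_combination (X.card : ℂ) * this), sum_add_distrib, ← mul_sum, h0, mul_zero, zero_add,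
      sum_const, hTcard, nsmul_eq_mul]
    push_cast
    ring
  -- comparison of the two halves
  have hRT : ∀ χ ∈ T, 2 * ∑ g ∈ R, (χ : G → ℂ) g * conj ((χ : G → ℂ) g) =
      (Nat.card G : ℂ) - (X.card : ℂ) := by
    intro χ hχ
    have h := horth χ χ
    rw [if_pos rfl, hsplit, sum_congr rfl (g := fun g : G =>
      2 * ((χ : G → ℂ) g * conj ((χ : G → ℂ) g))) (fun g _ => by
        rw [(mem_filter.1 hχ).2.2]; ring), ← mul_sum, sum_congr rfl (s₁ := X) (g := fun _ : G => (1 : ℂ))
      (fun g hg => by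
        rw [hXval χ (mem_filter.1 hχ).2.1 g hg, ha χ hχ, map_intCast, ← Int.cast_mul, ← pow_two,
          hone χ hχ, Int.cast_one]), sum_const, nsmul_eq_mul, mul_one] at h
    exact eq_sub_of_add_eq h
  have hRF : ∀ χ ∈ F, 2 * ∑ g ∈ R, (χ : G → ℂ) g * conj ((χ : G → ℂ) g) =
      (Nat.card G : ℂ) := by
    intro χ hχ
    have h := horth χ χ
    rw [if_pos rfl, hsplit, sum_congr rfl (g := fun g : G =>
      2 * ((χ : G → ℂ) g * conj ((χ : G → ℂ) g))) (fun g _ => by
        rw [(mem_filter.1 hχ).2.2, map_neg]; ring), ← mul_sum, sum_eq_zero (s := X)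
      (fun g hg => by
        rw [hXval χ (mem_filter.1 hχ).2.1 g hg, hF0 χ hχ, zero_mul]), add_zero] at h
    exact h
  have hpart : ∑ χ ∈ F, ∑ g ∈ R, (χ : G → ℂ) g * conj ((χ : G → ℂ) g) =
      ∑ χ ∈ T, ∑ g ∈ R, (χ : G → ℂ) g * conj ((χ : G → ℂ) g) := by
    rw [sum_comm, sum_comm (s := T)]
    refine sum_congr rfl fun g hg => ?_
    have hg' := (mem_filter.1 hg).2
    have h := hcol g (z * g⁻¹) hg' (hzs _ (by rwa [orderOf_inv]))
    rw [sum_union hTF, sum_congr rfl (g := fun χ : IrrCharacter G =>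
      (χ : G → ℂ) g * conj ((χ : G → ℂ) g)) (fun χ hχ => by
        rw [(mem_filter.1 hχ).2.2, IsIrrCharacter.inv χ.2]), sum_congr rfl (s₁ := F)
      (g := fun χ : IrrCharacter G => - ((χ : G → ℂ) g * conj ((χ : G → ℂ) g))) (fun χ hχ => by
        rw [(mem_filter.1 hχ).2.2, IsIrrCharacter.inv χ.2, mul_neg]), sum_neg_distrib,
      ← sub_eq_add_neg, sub_eq_zero] at h
    exact h.symm
  have hFcard : F.card = 3 := by
    have h := congrArg (fun x : ℂ => 2 * x) hpart
    simp only [mul_sum (a := (2 : ℂ))] at h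
    simp only [← mul_sum] at h
    rw [mul_sum, mul_sum, sum_congr rfl hRF, sum_congr rfl hRT, sum_const, sum_const, hTcard,
      nsmul_eq_mul, nsmul_eq_mul] at h
    have h2 : ((F.card : ℕ) : ℂ) * (Nat.card G : ℂ) = ((3 : ℕ) : ℂ) * (Nat.card G : ℂ) := by
      push_cast at h ⊢
      linear_combination h - hXcard
    exact_mod_cast mul_right_cancel₀ hN h2
  rw [Nat.card_congr (Equiv.subtypeEquivRight (fun χ => (hTFB χ).symm)),
    Nat.card_eq_fintype_card, Fintype.card_coe, card_union_of_disjoint hTF, hTcard, hFcard]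

end CfsgLib.BlockLocal
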